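import Mathlib
import Cfsg.Agent.H12.K5a

set_option autoImplicit false
set_option linter.unusedSectionVars false

/-! Action of an element on the chief factors below a normal `p`-subgroup, from its action on a critical subgroup. -/

namespace Cfsg.Agent.H12

open Cfsg Subgroup
open scoped commutatorElement

variable {G : Type*} [Group G]

lemma iterCommutator_succ_le (B D : Subgroup G) [B.Normal] (k : ℕ) :
    iterCommutator B D (k + 1) ≤ iterCommutator B D k := by
  induction k with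
  | zero => exact commutator_le_left B D
  | succ k ih => exact commutator_mono ih le_rfl

lemma iterCommutator_anti (B D : Subgroup G) [B.Normal] : Antitone (iterCommutator B D) :=
  antitone_nat_of_succ_le (iterCommutator_succ_le B D)

lemma sup_normal_commutator_le (H N D : Subgroup G) [N.Normal] : ⁅H ⊔ N, D⁆ ≤ ⁅H, D⁆ ⊔ N := by
  have h1 : (⁅H ⊔ N, D⁆).map (QuotientGroup.mk' N) = (⁅H, D⁆).map (QuotientGroup.mk' N) := by
    rw [map_commutator, map_commutator, Subgroup.map_sup]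
    have : N.map (QuotientGroup.mk' N) = ⊥ := by
      rw [Subgroup.map_eq_bot_iff, QuotientGroup.ker_mk']
    rw [this, sup_bot_eq]
  have h2 := le_comap_map (QuotientGroup.mk' N) ⁅H ⊔ N, D⁆
  rw [h1, comap_map_eq, QuotientGroup.ker_mk'] at h2
  exact h2

/-- the pairing lemma -/
theorem comm_iterCommutator_le_of_pairing (A A' B B' M D : Subgroup G) [A.Normal] [B.Normal] [B'.Normal] [M.Normal]
    (i j : ℕ) (hi : 1 ≤ i)
    (hB'B : B' ≤ B) (hAM : ⁅A, M⁆ ≤ B) (hA'M : ⁅A', M⁆ = ⊥) (hBA : ⁅B, A⁆ = ⊥) (hBM : ⁅B, M⁆ ≤ B')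
    (hAi : iterCommutator A D i ≤ A') (hBj : iterCommutator B D j ≤ B') :
    ⁅A, iterCommutator M D (i + j - 1)⁆ ≤ B' := by
  set ζ : ℕ → Subgroup G := fun n => iterCommutator B D (n - (i - 1)) ⊔ B' with hζ
  have hζB : ∀ n, ζ n ≤ B := fun n => sup_le (iterCommutator_le_left B D _) hB'B
  have hB'ζ : ∀ n, B' ≤ ζ n := fun n => le_sup_right
  have hz : ∀ n, ⁅ζ n, D⁆ ≤ ζ (n + 1) := by
    intro n
    refine (sup_normal_commutator_le _ B' D).trans (sup_le ?_ le_sup_right)
    refine le_trans ?_ le_sup_left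
    by_cases hn : n + 1 ≤ i - 1
    · have e1 : n - (i - 1) = 0 := by omega
      have e2 : n + 1 - (i - 1) = 0 := by omega
      rw [e1, e2]
      exact commutator_le_left B D
    · have e2 : n + 1 - (i - 1) = (n - (i - 1)) + 1 := by omega
      rw [e2]
      exact le_rfl
  have hanti : ∀ n, ζ (n + 1) ≤ ζ n := by
    intro n
    exact sup_le_sup_right (iterCommutator_anti B D (by omega)) B'
  have hΘ : ∀ n, M ≤ normalizer (ζ n : Set G) := fun n =>
    le_normalizer_of_comm_le (((commutator_mono (hζB n) le_rfl).trans hBM).trans (hB'ζ n))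
  have hD : ∀ n, D ≤ normalizer (ζ n : Set G) := fun n =>
    le_normalizer_of_comm_le ((hz n).trans (hanti n))
  have haN : ∀ k n, iterCommutator A D k ≤ normalizer (ζ n : Set G) := fun k n =>
    le_normalizer_of_comm_le (by
      refine (commutator_mono (hζB n) (iterCommutator_le_left A D k)).trans ?_
      rw [hBA]; exact bot_le)
  have hDM : D ≤ normalizer (M : Set G) := by
    rw [normalizer_eq_top]; exact le_top
  have h0 : M ≤ PhiSub (iterCommutator A D) ζ M hΘ 0 := by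
    intro t ht
    refine ⟨ht, fun k x hx => ?_⟩
    by_cases hk : k ≤ i - 1
    · have e1 : k + 0 - (i - 1) = 0 := by omega
      change ⁅x, t⁆ ∈ iterCommutator B D (k + 0 - (i - 1)) ⊔ B'
      rw [e1]
      exact le_sup_left (a := iterCommutator B D 0)
        (hAM (commutator_mem_commutator (iterCommutator_le_left A D k hx) ht))
    · have hx' : x ∈ A' := hAi (iterCommutator_anti A D (by omega) hx)
      have : ⁅x, t⁆ ∈ ⁅A', M⁆ := commutator_mem_commutator hx' ht
      rw [hA'M, mem_bot] at this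
      rw [this]
      exact one_mem _
  have h4 := (iterCommutator_mono h0 (le_refl D) (i + j - 1)).trans
    (iterCommutator_PhiSub_le hΘ (fun _ => le_rfl) hz hD haN hDM (i + j - 1))
  rw [commutator_le]
  intro x hx t ht
  have h5 := (h4 ht).2 0 x hx
  have e : 0 + (i + j - 1) - (i - 1) = j := by omega
  change ⁅x, t⁆ ∈ iterCommutator B D (0 + (i + j - 1) - (i - 1)) ⊔ B' at h5
  rw [e, sup_eq_right.mpr hBj] at h5
  exact h5

variable [Finite G] {p : ℕ} [Fact p.Prime]

/-- every nontrivial normal subgroup inside `P` has a proper normal subgroup absorbing the iterated commutator -/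
theorem exists_lt_iterCommutator_le (P Q D : Subgroup G) [hPn : P.Normal] [hQn : Q.Normal] (hP : IsPGroup p ↥P)
    (hQP : Q ≤ P)
    (hQ3 : ⁅P, Q⁆ ≤ Q ⊓ centralizer (Q : Set G))
    (hQ4 : P ⊓ centralizer (Q : Set G) = Q ⊓ centralizer (Q : Set G))
    (i j : ℕ) (hi : 1 ≤ i) (hj : 1 ≤ j)
    (hQi : ∀ U V : Subgroup G, IsChiefFactor U V → U ≤ Q → iterCommutator U D i ≤ V)
    (hZj : ∀ U V : Subgroup G, IsChiefFactor U V → U ≤ Q ⊓ centralizer (Q : Set G) → iterCommutator U D j ≤ V)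
    (M : Subgroup G) (hMn : M.Normal) (hMP : M ≤ P) (hM : M ≠ ⊥) :
    ∃ M' : Subgroup G, M'.Normal ∧ M' < M ∧ iterCommutator M D (i + j - 1) ≤ M' := by
  by_cases hMQ : M ≤ Q
  · obtain ⟨M', hM'⟩ := exists_chief_below hMn hM
    exact ⟨M', hM'.2.2.1, hM'.1, (iterCommutator_anti M D (by omega)).trans (hQi M M' hM' hMQ)⟩
  · have hQM : ⁅Q, M⁆ ≠ ⊥ := by
      intro h
      apply hMQ
      rw [commutator_comm, commutator_eq_bot_iff_le_centralizer] at h
      exact ((le_inf hMP h).trans hQ4.le).trans inf_le_left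
    obtain ⟨A, hA, hmin⟩ := (wellFounded_lt (α := Subgroup G)).has_min {A | A.Normal ∧ A ≤ Q ∧ ⁅A, M⁆ ≠ ⊥}
      ⟨Q, hQn, le_rfl, hQM⟩
    obtain ⟨hAn, hAQ, hAM⟩ := hA
    have hAne : A ≠ ⊥ := by
      rintro rfl
      exact hAM (commutator_bot_left _)
    obtain ⟨A', hA'⟩ := exists_chief_below hAn hAne
    have hA'M : ⁅A', M⁆ = ⊥ := by
      by_contra h
      exact hmin A' ⟨hA'.2.2.1, hA'.1.le.trans hAQ, h⟩ hA'.1
    have hBn : (⁅A, M⁆).Normal := inferInstance
    obtain ⟨B', hB'⟩ := exists_chief_below hBn hAM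
    have hB'n : B'.Normal := hB'.2.2.1
    have hBZ : ⁅A, M⁆ ≤ Q ⊓ centralizer (Q : Set G) := by
      rw [commutator_comm]
      exact (commutator_mono hMP hAQ).trans hQ3
    have hPcore : P ≤ pCore p G := le_pCore hPn hP
    have hBM : ⁅⁅A, M⁆, M⁆ ≤ B' :=
      (commutator_mono le_rfl (hMP.trans hPcore)).trans
        (pCore_centralizes_chief hB' (((hBZ.trans inf_le_left).trans hQP).trans hPcore))
    have hBA : ⁅⁅A, M⁆, A⁆ = ⊥ := by
      rw [commutator_eq_bot_iff_le_centralizer]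
      exact (hBZ.trans inf_le_right).trans (centralizer_le hAQ)
    have key := comm_iterCommutator_le_of_pairing A A' ⁅A, M⁆ B' M D i j hi hB'.1.le le_rfl hA'M hBA hBM
      (hQi A A' hA' hAQ) (hZj _ B' hB' hBZ)
    refine ⟨M ⊓ cmod A B', inferInstance, ?_, le_inf (iterCommutator_le_left M D _) ((le_cmod_iff _ _ _).mpr key)⟩
    refine lt_of_le_of_ne inf_le_left ?_
    intro h
    have h1 : M ≤ cmod A B' := inf_eq_left.mp h
    rw [le_cmod_iff] at h1
    exact absurd hB'.1 (not_lt_of_ge h1)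

theorem iterCommutator_chief_le_of_critical (P Q D : Subgroup G) [hPn : P.Normal] [hQn : Q.Normal] (hP : IsPGroup p ↥P)
    (hQP : Q ≤ P)
    (hQ3 : ⁅P, Q⁆ ≤ Q ⊓ centralizer (Q : Set G))
    (hQ4 : P ⊓ centralizer (Q : Set G) = Q ⊓ centralizer (Q : Set G))
    (i j : ℕ) (hi : 1 ≤ i) (hj : 1 ≤ j)
    (hQi : ∀ U V : Subgroup G, IsChiefFactor U V → U ≤ Q → iterCommutator U D i ≤ V)
    (hZj : ∀ U V : Subgroup G, IsChiefFactor U V → U ≤ Q ⊓ centralizer (Q : Set G) → iterCommutator U D j ≤ V)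
    (U V : Subgroup G) (hUV : IsChiefFactor U V) (hU : U ≤ P) : iterCommutator U D (i + j - 1) ≤ V := by
  by_contra hcon
  obtain ⟨M, hM, hmin⟩ := (wellFounded_lt (α := Subgroup G)).has_min {M | M.Normal ∧ M ≤ P ∧ ¬ U ⊓ M ≤ V}
    ⟨P, hPn, le_rfl, by
      rw [inf_eq_left.mpr hU]
      exact fun h => absurd hUV.1 (not_lt_of_ge h)⟩
  obtain ⟨hMn, hMP, hMV⟩ := hM
  have hMne : M ≠ ⊥ := by
    rintro rfl
    apply hMV
    rw [inf_bot_eq]; exact bot_le
  obtain ⟨M', hM'n, hlt, hle⟩ := exists_lt_iterCommutator_le P Q D hP hQP hQ3 hQ4 i j hi hj hQi hZj M hMn hMP hMne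
  exact hmin M' ⟨hM'n, hlt.le.trans hMP, chief_step hUV (i + j - 1) hle hMV hcon⟩ hlt

end Cfsg.Agent.H12
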