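import Mathlib
import Cfsg.Agent.H12.Dk26
import Cfsg.Agent.H12.Dk19
import Cfsg.Agent.H20.PSolvHall
import Cfsg.Agent.Lib.Helper22.PSolvSub

set_option autoImplicit false
set_option linter.unusedSimpArgs false
set_option linter.unusedSectionVars false

namespace Cfsg.Agent.H12.Dk

open Subgroup Matrix Cfsg.Agent.Lib.Helper27
open scoped commutatorElement

section field

variable {F : Type*} [Field F]

lemma exists_dd {a : F} (ha : a ≠ 0) : ∃ d : SpecialLinearGroup (Fin 2) F, e00 d = a ∧ e01 d = 0 ∧ e10 d = 0 ∧ e11 d = a⁻¹ :=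
  ⟨⟨!![a, 0; 0, a⁻¹], by simp [det_fin_two, ha]⟩, by simp [e00], by simp [e01], by simp [e10], by simp [e11]⟩

lemma exists_w0 : ∃ w₀ : SpecialLinearGroup (Fin 2) F, e00 w₀ = 0 ∧ e01 w₀ = 1 ∧ e10 w₀ = -1 ∧ e11 w₀ = 0 :=
  ⟨⟨!![0, 1; -1, 0], by simp [det_fin_two]⟩, by simp [e00], by simp [e01], by simp [e10], by simp [e11]⟩

/-- `SL₂(F)` is perfect as soon as `F` has an element `a ≠ 0` with `a² ≠ 1`. -/
lemma sl2_perfect_of {a : F} (ha : a ≠ 0) (ha2 : a ^ 2 - 1 ≠ 0) : commutator (SpecialLinearGroup (Fin 2) F) = ⊤ := by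
  obtain ⟨d, d00, d01, d10, d11⟩ := exists_dd ha
  apply mem_of_xx_yy
  · intro s
    have : xx s = ⁅d, xx (s / (a ^ 2 - 1))⁆ := by
      rw [commutatorElement_def]
      apply sl_ext <;> simp [d00, d01, d10, d11] <;> field_simp <;> ring
    rw [this]
    exact commutator_mem_commutator (mem_top _) (mem_top _)
  · intro s
    have : yy s = ⁅d⁻¹, yy (s / (a ^ 2 - 1))⁆ := by
      rw [commutatorElement_def]
      apply sl_ext <;> simp [d00, d01, d10, d11] <;> field_simp <;> ring
    rw [this]
    exact commutator_mem_commutator (mem_top _) (mem_top _)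

end field

variable {p : ℕ} [Fact p.Prime]

lemma natCast_ne_zero_of_lt {k : ℕ} (hk0 : 0 < k) (hk : k < p) : ((k : ℕ) : ZMod p) ≠ 0 := by
  intro h
  rw [ZMod.natCast_eq_zero_iff] at h
  exact absurd (Nat.le_of_dvd hk0 h) (by omega)

theorem sl2_perfect (hp5 : 5 ≤ p) : commutator (SpecialLinearGroup (Fin 2) (ZMod p)) = ⊤ := by
  have h2 : (2 : ZMod p) ≠ 0 := by
    have := natCast_ne_zero_of_lt (p := p) (k := 2) (by norm_num) (by omega)
    exact_mod_cast this
  have h3 : (2 : ZMod p) ^ 2 - 1 ≠ 0 := by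
    have := natCast_ne_zero_of_lt (p := p) (k := 3) (by norm_num) (by omega)
    have e : (2 : ZMod p) ^ 2 - 1 = ((3 : ℕ) : ZMod p) := by push_cast; ring
    rw [e]; exact this
  exact sl2_perfect_of h2 h3

/-- a normal subgroup of `SL₂(p)` containing a nontrivial unipotent element is everything -/
theorem normal_eq_top_of_unipotent (M : Subgroup (SpecialLinearGroup (Fin 2) (ZMod p))) [hM : M.Normal]
    {g : SpecialLinearGroup (Fin 2) (ZMod p)} (hg : g ∈ M) (hg1 : g ≠ 1) (htr : tr g = 2) : M = ⊤ := by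
  obtain ⟨w₀, h00, h01, h10, h11⟩ := exists_w0 (F := ZMod p)
  have hd := sl_det g
  unfold tr at htr
  -- some `xx s`, `s ≠ 0`, lies in `M`
  have hxx : ∃ s : ZMod p, s ≠ 0 ∧ xx s ∈ M := by
    by_cases hc : e10 g = 0
    · have h1 : (e00 g - 1) ^ 2 = 0 := by
        rw [hc] at hd
        linear_combination (e00 g) * htr - hd
      have h2 : e00 g = 1 := sub_eq_zero.mp (pow_eq_zero_iff (two_ne_zero) |>.mp h1)
      have h3 : e11 g = 1 := by linear_combination htr - h2
      have h4 : g = xx (e01 g) := by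
        apply sl_ext <;> simp [h2, h3, hc]
      refine ⟨e01 g, ?_, h4 ▸ hg⟩
      intro h0
      apply hg1
      rw [h4, h0]
      apply sl_ext <;> simp
    · -- conjugate to `yy c`
      have h5 : xx ((1 - e00 g) / e10 g) * g * (xx ((1 - e00 g) / e10 g))⁻¹ = yy (e10 g) := by
        apply sl_ext
        · simp; field_simp; ring
        · simp; field_simp
          linear_combination (-1 : ZMod p) * hd + htr
        · simp
        · simp; field_simp
          linear_combination htr
      have h6 : yy (e10 g) ∈ M := h5 ▸ hM.conj_mem _ hg _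
      refine ⟨-(e10 g), neg_ne_zero.mpr hc, ?_⟩
      have h7 : w₀ * yy (e10 g) * w₀⁻¹ = xx (-(e10 g)) := by
        apply sl_ext <;> simp [h00, h01, h10, h11]
      exact h7 ▸ hM.conj_mem _ h6 _
  obtain ⟨s, hs, hsM⟩ := hxx
  have hallx : ∀ t, xx t ∈ M := by
    intro t
    have : xx t = xx s ^ (t / s).val := by
      rw [xx_pow, ZMod.natCast_zmod_val, div_mul_cancel₀ _ hs]
    rw [this]
    exact pow_mem hsM _
  apply mem_of_xx_yy _ hallx
  intro t
  have h7 : w₀ * xx (-t) * w₀⁻¹ = yy t := by
    apply sl_ext <;> simp [h00, h01, h10, h11]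
  exact h7 ▸ hM.conj_mem _ (hallx _) _

lemma xx_one_pow_p : (xx (1 : ZMod p)) ^ p = 1 := by
  rw [xx_pow]
  apply sl_ext <;> simp

lemma xx_one_ne_one : xx (1 : ZMod p) ≠ 1 := by
  intro h
  have := congrArg e01 h
  simp at this

lemma p_dvd_card_sl2 : p ∣ Nat.card (SpecialLinearGroup (Fin 2) (ZMod p)) := by
  have h1 : orderOf (xx (1 : ZMod p)) = p := orderOf_eq_prime xx_one_pow_p xx_one_ne_one
  have := orderOf_dvd_natCard (xx (1 : ZMod p))
  rwa [h1] at this

theorem not_isPSolvable_sl2 (hp5 : 5 ≤ p) : ¬ Cfsg.IsPSolvable p (SpecialLinearGroup (Fin 2) (ZMod p)) := by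
  rintro ⟨n, H, h0, hn, hmono, hnorm, hstep⟩
  have hfin : Finite (SpecialLinearGroup (Fin 2) (ZMod p)) := by
    have : Finite (Matrix (Fin 2) (Fin 2) (ZMod p)) := inferInstance
    exact Subtype.finite
  have key : ∀ i : Fin (n + 1), (Nat.card (H i)).Coprime p := by
    intro i
    induction i using Fin.induction with
    | zero => rw [h0, card_bot]; exact Nat.coprime_one_left p
    | succ i ih =>
      have hle : H i.castSucc ≤ H i.succ := hmono (Fin.castSucc_le_succ i)
      have hcard : Nat.card (H i.castSucc) * (H i.castSucc).relIndex (H i.succ) = Nat.card (H i.succ) := by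
        exact card_mul_relIndex' hle
      rcases hstep i with ⟨m, hm⟩ | hc
      · by_contra hcon
        have hdvd : p ∣ Nat.card (H i.succ) := by
          by_contra h
          exact hcon (((Fact.out : p.Prime).coprime_iff_not_dvd.mpr h).symm)
        obtain ⟨g, hg⟩ := exists_prime_orderOf_dvd_card' p hdvd
        have hgp : (g : SpecialLinearGroup (Fin 2) (ZMod p)) ^ (p ^ 1) = 1 := by
          have : g ^ p = 1 := by
            have := pow_orderOf_eq_one g
            rwa [hg] at this
          rw [pow_one]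
          exact congrArg Subtype.val this
        have hg1 : (g : SpecialLinearGroup (Fin 2) (ZMod p)) ≠ 1 := by
          intro h
          have : g = 1 := Subtype.ext h
          rw [this, orderOf_one] at hg
          exact (Fact.out : p.Prime).one_lt.ne hg
        have := hnorm i.succ
        have htop := normal_eq_top_of_unipotent (H i.succ) g.2 hg1 (tr_eq_two_of_pow p hgp)
        -- the quotient by `H i` is a `p`-group, but `SL₂(p)` is perfect
        have := hnorm i.castSucc
        rw [htop, relIndex_top_right] at hm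
        have hQ : IsPGroup p (SpecialLinearGroup (Fin 2) (ZMod p) ⧸ H i.castSucc) := IsPGroup.of_card hm
        have hnil : Group.IsNilpotent (SpecialLinearGroup (Fin 2) (ZMod p) ⧸ H i.castSucc) := hQ.isNilpotent
        have hsol : Group.IsSolvable (SpecialLinearGroup (Fin 2) (ZMod p) ⧸ H i.castSucc) := inferInstance
        have hperf : commutator (SpecialLinearGroup (Fin 2) (ZMod p) ⧸ H i.castSucc) = ⊤ := by
          have h1 := map_commutator (⊤ : Subgroup (SpecialLinearGroup (Fin 2) (ZMod p))) ⊤ (QuotientGroup.mk' (H i.castSucc))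
          have h2 : (⊤ : Subgroup (SpecialLinearGroup (Fin 2) (ZMod p))).map (QuotientGroup.mk' (H i.castSucc)) = ⊤ := by
            rw [← MonoidHom.range_eq_map, MonoidHom.range_eq_top]
            exact QuotientGroup.mk'_surjective _
          rw [h2] at h1
          have h3 : ⁅(⊤ : Subgroup (SpecialLinearGroup (Fin 2) (ZMod p))), ⊤⁆ = ⊤ := sl2_perfect hp5
          rw [h3, h2] at h1
          exact h1.symm
        by_cases hnt : Nontrivial (SpecialLinearGroup (Fin 2) (ZMod p) ⧸ H i.castSucc)
        · exact (Group.IsSolvable.commutator_lt_top_of_nontrivial _).ne hperf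
        · rw [not_nontrivial_iff_subsingleton] at hnt
          have h4 : H i.castSucc = ⊤ := QuotientGroup.subgroup_eq_top_of_subsingleton _ hnt
          rw [h4, card_top] at ih
          exact (Nat.Prime.coprime_iff_not_dvd Fact.out).mp ih.symm p_dvd_card_sl2
      · rw [← hcard]
        exact Nat.Coprime.mul_left ih hc
  have := key (Fin.last n)
  rw [hn, card_top] at this
  exact (Nat.Prime.coprime_iff_not_dvd Fact.out).mp this.symm p_dvd_card_sl2

theorem isPSolvable_of_surjective {G G' : Type*} [Group G] [Group G'] (hs : Cfsg.IsPSolvable p G)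
    (f : G →* G') (hf : Function.Surjective f) : Cfsg.IsPSolvable p G' := by
  obtain ⟨n, H, h0, hn, hmono, hnorm, hstep⟩ := hs
  refine ⟨n, fun i => (H i).map f, ?_, ?_, ?_, ?_, ?_⟩
  · simp only [h0, Subgroup.map_bot]
  · simp only [hn]
    rw [← MonoidHom.range_eq_map, MonoidHom.range_eq_top]
    exact hf
  · intro i j hij
    exact map_mono (hmono hij)
  · intro i
    exact (hnorm i).map _ hf
  · intro i
    have := hnorm i.castSucc
    have hd := Cfsg.Agent.H20.relIndex_map_dvd f
      (hmono (Fin.castSucc_le_succ i) : H i.castSucc ≤ H i.succ)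
    rcases hstep i with ⟨m, hm⟩ | hc
    · left
      rw [hm] at hd
      obtain ⟨k, -, hk⟩ := (Nat.dvd_prime_pow Fact.out).1 hd
      exact ⟨k, hk⟩
    · right
      exact Nat.Coprime.coprime_dvd_left hd hc

theorem not_involves_sl2_of_isPSolvable {G : Type*} [Group G] [Finite G] (hp5 : 5 ≤ p) (hs : Cfsg.IsPSolvable p G) :
    ¬ Cfsg.Involves (SpecialLinearGroup (Fin 2) (ZMod p)) G := by
  intro h
  obtain ⟨K, f, hf⟩ := Cfsg.Agent.Lib.Helper27.Involves.exists_span h
  exact not_isPSolvable_sl2 hp5
    (isPSolvable_of_surjective (Cfsg.Agent.Lib.Helper22.isPSolvable_subgroup Fact.out hs K) f hf)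

end Cfsg.Agent.H12.Dk
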