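import Mathlib
import Cfsg.Agent.H12.Dk27

set_option autoImplicit false
set_option linter.unusedSimpArgs false
set_option linter.unusedSectionVars false

namespace Cfsg.Agent.H12.Dk

open Subgroup Matrix Cfsg.Agent.Lib.Helper27
open scoped commutatorElement

variable {p : ℕ} [Fact p.Prime] {G : Type*} [Group G]

lemma isPGroup_of_elem {V : Subgroup G} (hV : Cfsg.IsElementaryAbelian p V) : IsPGroup p V := by
  rintro ⟨a, ha⟩
  exact ⟨1, Subtype.ext (by rw [pow_one]; exact hV.2 a ha)⟩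

theorem natData_of_faithful [Finite G] (hp : p ≠ 2) (V H : Subgroup G) (hV : Cfsg.IsElementaryAbelian p V)
    (hHV : H ≤ normalizer (V : Set G)) (hf : H ⊓ centralizer (V : Set G) = ⊥) (a : G) (haH : a ∈ H)
    (hq : ⁅⁅V, zpowers a⁆, zpowers a⁆ = ⊥) (hna : a ∉ (Cfsg.pCore p H).map H.subtype) :
    ∃ (K : Subgroup G) (D : NatData p G K), D.j = K.subtype ∧ K ≤ H ∧ ∀ v, D.ι v ∈ V := by
  have qa := quadOn_of_comm hq
  obtain ⟨r, hr⟩ := IsPGroup.iff_card.mp (isPGroup_of_elem hV)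
  have hap : ∃ n : ℕ, (⟨a, haH⟩ : H) ^ (p ^ n) = 1 := by
    refine ⟨r, Subtype.ext ?_⟩
    change a ^ (p ^ r) = 1
    have h1 := qa.pow_card_mem_centralizer (hHV haH)
    rw [hr] at h1
    have h2 : a ^ (p ^ r) ∈ H ⊓ centralizer (V : Set G) := ⟨pow_mem haH _, h1⟩
    rwa [hf, mem_bot] at h2
  have ha' : (⟨a, haH⟩ : H) ∉ Cfsg.pCore p ↥H := fun h => hna ⟨_, h, rfl⟩
  obtain ⟨g, l, hl, hln⟩ := baer_suzuki_elt p hap ha'
  have hlG : (l : G) ∈ closure {a, (g : G) * a * (g : G)⁻¹} := by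
    have h1 : H.subtype l ∈ (closure {(⟨a, haH⟩ : H), g * ⟨a, haH⟩ * g⁻¹}).map H.subtype := mem_map_of_mem _ hl
    rw [MonoidHom.map_closure, Set.image_pair] at h1
    exact h1
  obtain ⟨K, D, hj, hK, hι⟩ := exists_natData p hp V hV (hHV haH) (hHV (mul_mem (mul_mem g.2 haH) (inv_mem g.2)))
    qa (qa.conj (hHV g.2)) ⟨l, hlG, by
      intro n hn
      apply hln n
      have h2 : ((l ^ (p ^ n) : H) : G) ∈ H ⊓ centralizer (V : Set G) := ⟨(l ^ (p ^ n) : H).2, hn⟩
      rw [hf, mem_bot] at h2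
      exact Subtype.ext h2⟩
  refine ⟨K, D, hj, hK.trans ?_, hι⟩
  rw [closure_le]
  rintro z (rfl | hz)
  · exact haH
  · rw [Set.mem_singleton_iff] at hz
    subst hz
    exact mul_mem (mul_mem g.2 haH) (inv_mem g.2)

/-- an odd prime below `5` is `3` -/
lemma eq_three_of_lt_five (hp : p ≠ 2) (h : ¬ 5 ≤ p) : p = 3 := by
  have hpp : p.Prime := Fact.out
  have h2 := hpp.two_le
  have h4 : p ≠ 4 := by
    rintro rfl
    exact absurd hpp (by norm_num)
  omega

end Cfsg.Agent.H12.Dk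

namespace Cfsg.Agent.H12.Dk

open Subgroup Matrix Cfsg.Agent.Lib.Helper27
open scoped commutatorElement

variable {p : ℕ} [Fact p.Prime] {G : Type*} [Group G]

theorem isPSolvable_of_normal_compl {X : Type*} [Group X] [Finite X] (N : Subgroup X) [hN : N.Normal]
    (h1 : (Nat.card N).Coprime p) (h2 : IsPGroup p (X ⧸ N)) : Cfsg.IsPSolvable p X := by
  refine ⟨2, ![⊥, N, ⊤], rfl, rfl, ?_, ?_, ?_⟩
  · intro i j hij
    fin_cases i <;> fin_cases j <;> simp_all
  · intro i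
    fin_cases i
    · exact (inferInstance : (⊥ : Subgroup X).Normal)
    · exact hN
    · exact (inferInstance : (⊤ : Subgroup X).Normal)
  · intro i
    fin_cases i
    · right
      change ((⊥ : Subgroup X).relIndex N).Coprime p
      rw [relIndex_bot_left]
      exact h1
    · left
      change ∃ m : ℕ, N.relIndex ⊤ = p ^ m
      rw [relIndex_top_right]
      exact IsPGroup.iff_card.mp h2

/-- `Q⟨a⟩` is `p`-soluble -/
theorem isPSolvable_sup_zpowers [Finite G] {Q : Subgroup G} {a : G} (hQ : (Nat.card Q).Coprime p)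
    (ha : a ∈ normalizer (Q : Set G)) {r : ℕ} (har : a ^ (p ^ r) = 1) : Cfsg.IsPSolvable p ↥(Q ⊔ zpowers a) := by
  have hle : Q ⊔ zpowers a ≤ normalizer (Q : Set G) := sup_le le_normalizer (by rw [zpowers_le]; exact ha)
  have hn : (Q.subgroupOf (Q ⊔ zpowers a)).Normal := normal_subgroupOf_of_le_normalizer hle
  apply isPSolvable_of_normal_compl (Q.subgroupOf (Q ⊔ zpowers a))
  · rw [Nat.card_congr (subgroupOfEquivOfLe (le_sup_left : Q ≤ Q ⊔ zpowers a)).toEquiv]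
    exact hQ
  · have haH : a ∈ Q ⊔ zpowers a := mem_sup_right (mem_zpowers a)
    have htop : (⊤ : Subgroup (↥(Q ⊔ zpowers a) ⧸ Q.subgroupOf (Q ⊔ zpowers a))) =
        zpowers (QuotientGroup.mk' _ (⟨a, haH⟩ : ↥(Q ⊔ zpowers a))) := by
      have h1 : (⊤ : Subgroup ↥(Q ⊔ zpowers a)) = Q.subgroupOf (Q ⊔ zpowers a) ⊔ zpowers (⟨a, haH⟩ : ↥(Q ⊔ zpowers a)) := by
        have h2 := subgroupOf_sup (le_sup_left : Q ≤ Q ⊔ zpowers a) (le_sup_right : zpowers a ≤ Q ⊔ zpowers a)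
        rw [subgroupOf_self] at h2
        rw [h2]
        congr 1
        ext x
        rw [mem_subgroupOf, mem_zpowers_iff, mem_zpowers_iff]
        constructor
        · rintro ⟨k, hk⟩
          exact ⟨k, Subtype.ext (by simpa using hk)⟩
        · rintro ⟨k, hk⟩
          exact ⟨k, by rw [← hk]; simp⟩
      have h3 : (⊤ : Subgroup ↥(Q ⊔ zpowers a)).map (QuotientGroup.mk' (Q.subgroupOf (Q ⊔ zpowers a))) = ⊤ := by
        rw [← MonoidHom.range_eq_map, MonoidHom.range_eq_top]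
        exact QuotientGroup.mk'_surjective _
      rw [← h3, h1, Subgroup.map_sup, MonoidHom.map_zpowers]
      have h4 : (Q.subgroupOf (Q ⊔ zpowers a)).map (QuotientGroup.mk' (Q.subgroupOf (Q ⊔ zpowers a))) = ⊥ := by
        rw [Subgroup.map_eq_bot_iff, QuotientGroup.ker_mk']
      rw [h4, bot_sup_eq]
    intro y
    have hy : y ∈ zpowers (QuotientGroup.mk' _ (⟨a, haH⟩ : ↥(Q ⊔ zpowers a))) := by rw [← htop]; trivial
    obtain ⟨k, rfl⟩ := mem_zpowers_iff.mp hy
    refine ⟨r, ?_⟩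
    have h5 : (QuotientGroup.mk' (Q.subgroupOf (Q ⊔ zpowers a)) (⟨a, haH⟩ : ↥(Q ⊔ zpowers a))) ^ (p ^ r) = 1 := by
      rw [← map_pow]
      have : (⟨a, haH⟩ : ↥(Q ⊔ zpowers a)) ^ (p ^ r) = 1 := Subtype.ext har
      rw [this, map_one]
    rw [← zpow_natCast, ← _root_.zpow_mul, mul_comm, _root_.zpow_mul, zpow_natCast, h5, _root_.one_zpow]

end Cfsg.Agent.H12.Dk
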