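import Mathlib
import Cfsg.Agent.H12.Control3
import Cfsg.Agent.H12.Sec4

set_option autoImplicit false

/-! A factorization `X = N(V₁ T) N(V₂ T)` gives control of strong fusion by the pair. -/

namespace Cfsg.Agent.H12

open Cfsg

universe u

variable {p : ℕ} [Fact p.Prime]

theorem family_of_factorization {X : Type*} [Group X] [Finite X] (T : Sylow p X) (V₁ V₂ : Subgroup X → Subgroup X)
    (h1 : (T : Subgroup X) ≤ Subgroup.normalizer ((V₁ T : Subgroup X) : Set X))
    (h2 : (T : Subgroup X) ≤ Subgroup.normalizer ((V₂ T : Subgroup X) : Set X))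
    (hfac : ∀ x : X, ∃ a ∈ Subgroup.normalizer ((V₁ T : Subgroup X) : Set X),
      ∃ b ∈ Subgroup.normalizer ((V₂ T : Subgroup X) : Set X), x = a * b) :
    FamilyControlsStrongFusionIn p {V₁, V₂} ⊤ := by
  refine family_of le_top T.2 (sylow_not_dvd_relIndex_top T) ?_
  intro A h hA _ hAh
  obtain ⟨a, ha, b, hb, rfl⟩ := hfac h
  set N₁ := Subgroup.normalizer ((V₁ T : Subgroup X) : Set X) with hN₁
  set N₂ := Subgroup.normalizer ((V₂ T : Subgroup X) : Set X) with hN₂
  have hP1 : cj A a ≤ N₁ := by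
    intro x hx
    have hx' := hA (mem_cj.mp hx)
    have := N₁.mul_mem (N₁.mul_mem (N₁.inv_mem ha) (h1 hx')) ha
    simpa [mul_assoc] using this
  have hP2 : cj A a ≤ N₂ := by
    intro x hx
    have hx' : b⁻¹ * x * b ∈ cj (cj A a) b := conj_mem_cj hx
    rw [cj_mul] at hx'
    have := N₂.mul_mem (N₂.mul_mem hb (h2 (hAh hx'))) (N₂.inv_mem hb)
    simpa [mul_assoc] using this
  have hidx : ¬ p ∣ (T : Subgroup X).relIndex (N₁ ⊓ N₂) := by
    intro h
    exact T.not_dvd_index (h.trans (Subgroup.relIndex_dvd_index_of_le (le_inf h1 h2)))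
  obtain ⟨t, ht, htT⟩ := exists_conj_le_of_relIndex (le_inf h1 h2) T.2 hidx (le_inf hP1 hP2)
    (isPGroup_cj (T.2.to_le hA) a)
  have htT' : cj (cj A a) t⁻¹ ≤ T := by
    unfold cj at htT ⊢
    rw [inv_inv]
    exact htT
  rw [cj_mul] at htT'
  refine ⟨(a * t⁻¹) * (t * b), ?_, ?_⟩
  · refine WChain.cons ⟨V₁, Set.mem_insert _ _, trivial, N₁.mul_mem ha (N₁.inv_mem ht.1)⟩ htT' ?_
    refine WChain.single ⟨V₂, Set.mem_insert_of_mem _ rfl, trivial, N₂.mul_mem ht.2 hb⟩ ?_
    rw [cj_mul]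
    have : a * t⁻¹ * (t * b) = a * b := by group
    rw [this]
    exact hAh
  · intro x _
    have : a * t⁻¹ * (t * b) = a * b := by group
    rw [this]

end Cfsg.Agent.H12
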