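import Mathlib

set_option autoImplicit false

namespace Cfsg.Agent.H12

/-- the common core of S2008 / S2009 -/
theorem normal_eq_bot_of_four {H : Type*} [Group H] [Finite H] (z : H) (hz : orderOf z = 2)
    (hN : ∀ N : Subgroup H, N.Normal → N ≠ ⊤ → N ⊓ Subgroup.centralizer ({z} : Set H) = ⊥)
    (E : Subgroup H) (hE : IsKleinFour ↥E) (hzE : z ∈ E) (hc : ∀ e ∈ E, e ≠ 1 → IsConj z e)
    (N : Subgroup H) (hNn : N.Normal) (hne : N ≠ ⊤) : N = ⊥ := by
  classical
  have hzz : z * z = 1 := by rw [← pow_two, ← hz]; exact pow_orderOf_eq_one z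
  have hz1 : z ≠ 1 := by
    intro h; rw [h, orderOf_one] at hz; omega
  have hfix : ∀ e ∈ E, e ≠ 1 → ∀ x ∈ N, e * x = x * e → x = 1 := by
    intro e he he1 x hx hex
    obtain ⟨c, hc'⟩ := isConj_iff.mp (hc e he he1)
    have h1 : c⁻¹ * x * c ∈ N ⊓ Subgroup.centralizer ({z} : Set H) := by
      refine Subgroup.mem_inf.mpr ⟨?_, ?_⟩
      · have := hNn.conj_mem x hx c⁻¹
        simpa using this
      · rw [Subgroup.mem_centralizer_singleton_iff]
        have hz' : z = c⁻¹ * e * c := by rw [← hc']; group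
        calc c⁻¹ * x * c * z = c⁻¹ * (x * e) * c := by rw [hz']; group
          _ = c⁻¹ * (e * x) * c := by rw [hex]
          _ = z * (c⁻¹ * x * c) := by rw [hz']; group
    rw [hN N hNn hne, Subgroup.mem_bot] at h1
    calc x = c * (c⁻¹ * x * c) * c⁻¹ := by group
      _ = 1 := by rw [h1]; group
  have hsq : ∀ e ∈ E, e ≠ 1 → e * e = 1 := by
    intro e he he1
    obtain ⟨c, hc'⟩ := isConj_iff.mp (hc e he he1)
    rw [← hc']
    calc c * z * c⁻¹ * (c * z * c⁻¹) = c * (z * z) * c⁻¹ := by group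
      _ = 1 := by rw [hzz]; group
  have hinv : ∀ e ∈ E, e ≠ 1 → ∀ x ∈ N, e * x * e⁻¹ = x⁻¹ := by
    intro e he he1 x hx
    let f : N → N := fun n => ⟨(n : H)⁻¹ * (e * n * e⁻¹), mul_mem (inv_mem n.2) (hNn.conj_mem n n.2 e)⟩
    have hinj : Function.Injective f := by
      intro n m hnm
      have h1 : (n : H)⁻¹ * (e * n * e⁻¹) = (m : H)⁻¹ * (e * m * e⁻¹) := congrArg Subtype.val hnm
      have h2 : e * ((m : H) * (n : H)⁻¹) = ((m : H) * (n : H)⁻¹) * e := by
        calc e * ((m : H) * (n : H)⁻¹) = (m : H) * ((m : H)⁻¹ * (e * m * e⁻¹)) * (e * (n : H)⁻¹) := by group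
          _ = (m : H) * ((n : H)⁻¹ * (e * n * e⁻¹)) * (e * (n : H)⁻¹) := by rw [h1]
          _ = ((m : H) * (n : H)⁻¹) * e := by group
      have h3 := hfix e he he1 _ (mul_mem m.2 (inv_mem n.2)) h2
      apply Subtype.ext
      exact (mul_inv_eq_one.mp h3).symm
    obtain ⟨n, hn⟩ := (Finite.injective_iff_surjective.mp hinj) ⟨x, hx⟩
    have hn' : (n : H)⁻¹ * (e * n * e⁻¹) = x := congrArg Subtype.val hn
    have hee := hsq e he he1
    rw [← hn']
    calc e * ((n : H)⁻¹ * (e * n * e⁻¹)) * e⁻¹ = (e * (n : H)⁻¹ * e⁻¹) * ((e * e) * n * (e * e)⁻¹) := by group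
      _ = (e * (n : H)⁻¹ * e⁻¹) * (1 * n * 1⁻¹) := by rw [hee]
      _ = ((n : H)⁻¹ * (e * n * e⁻¹))⁻¹ := by group
  obtain ⟨e₂, he₂, h21, h2z⟩ : ∃ e₂ ∈ E, e₂ ≠ 1 ∧ e₂ ≠ z := by
    by_contra hcon
    push Not at hcon
    have hcard : Nat.card E = 4 := hE.card_four
    have : Fintype E := Fintype.ofFinite E
    rw [Nat.card_eq_fintype_card] at hcard
    have hsub : (Finset.univ : Finset E) ⊆ {1, ⟨z, hzE⟩} := by
      intro x _
      by_cases hx : (x : H) = 1
      · simp [Subtype.ext_iff, hx]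
      · have := hcon x x.2 hx
        simp [Subtype.ext_iff, this]
    have h1 := Finset.card_le_card hsub
    have h2 : ({1, ⟨z, hzE⟩} : Finset E).card ≤ 2 := Finset.card_le_two
    rw [Finset.card_univ] at h1
    omega
  have h3 : z * e₂ ≠ 1 := by
    intro h
    apply h2z
    calc e₂ = (z * z) * e₂ := by rw [hzz, one_mul]
      _ = z * (z * e₂) := by group
      _ = z := by rw [h, mul_one]
  rw [eq_bot_iff]
  intro x hx
  rw [Subgroup.mem_bot]
  apply hfix (z * e₂) (mul_mem hzE he₂) h3 x hx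
  have h4 := hinv e₂ he₂ h21 x hx
  have h5 := hinv z hzE hz1 x⁻¹ (inv_mem hx)
  rw [inv_inv] at h5
  calc z * e₂ * x = z * (e₂ * x * e₂⁻¹) * z⁻¹ * (z * e₂) := by group
    _ = x * (z * e₂) := by rw [h4, h5]

end Cfsg.Agent.H12
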