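import Mathlib
import Cfsg.Agent.H12.Wr2

set_option autoImplicit false
set_option linter.unusedSimpArgs false
set_option linter.unusedSectionVars false

/-! A relative form of the wreath product quotient criterion. -/

namespace Cfsg.Agent.H12.Yo

open Cfsg.Agent.H12.Wr

variable {p : ℕ} [hpf : Fact p.Prime] {P : Type*} [Group P]

lemma hom_list_prod_range {M C : Type*} [Monoid M] [CommMonoid C] (μ : M →* C) (a : ℕ → M) (n : ℕ) :
    μ ((List.range n).map a).prod = ∏ i ∈ Finset.range n, μ (a i) := by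
  induction n with
  | zero => simp
  | succ n ih =>
    rw [Finset.prod_range_succ, ← ih, List.range_succ, List.map_append, List.prod_append, map_mul]
    simp

theorem exists_surj_rel [Finite P] (hP : IsPGroup p P) (R : Subgroup P) [hRn : R.Normal] (hidx : R.index = p)
    {C : Type*} [CommGroup C] (hC : ∀ c : C, c ^ p = 1) (μ : R →* C) (x : R) (y : P)
    (hprod : ∏ i ∈ Finset.range p, μ (MulAut.conjNormal (y ^ i)⁻¹ x) ≠ 1) :
    ∃ (Q : Sylow p (Equiv.Perm (Fin (p ^ 2)))) (f : P →* ↥(Q : Subgroup (Equiv.Perm (Fin (p ^ 2))))),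
      Function.Surjective f := by
  set H : Subgroup P := μ.ker.map R.subtype with hH
  set K : Subgroup P := H.normalCore with hK
  have hKn : K.Normal := Subgroup.normalCore_normal _
  have hHR : H ≤ R := Subgroup.map_subtype_le _
  have hKH : K ≤ H := Subgroup.normalCore_le _
  have hmemH : ∀ (z : P) (hz : z ∈ R), z ∈ H ↔ μ ⟨z, hz⟩ = 1 := by
    intro z hz
    constructor
    · rintro ⟨w, hw, rfl⟩
      exact hw
    · intro h
      exact ⟨⟨z, hz⟩, h, rfl⟩
  have hmemK : ∀ z : P, (∀ g : P, g * z * g⁻¹ ∈ H) → z ∈ K := fun z h => h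
  let π := QuotientGroup.mk' K
  have hπs : Function.Surjective π := QuotientGroup.mk'_surjective K
  have hAn : (R.map π).Normal := hRn.map π hπs
  have hEA : Cfsg.IsElementaryAbelian p (R.map π) := by
    constructor
    · refine ⟨⟨?_⟩⟩
      rintro ⟨_, a, ha, rfl⟩ ⟨_, b, hb, rfl⟩
      apply Subtype.ext
      change π a * π b = π b * π a
      rw [← map_mul, ← map_mul]
      apply (QuotientGroup.eq).mpr
      apply hmemK
      intro g
      have ha' : g * a * g⁻¹ ∈ R := hRn.conj_mem a ha g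
      have hb' : g * b * g⁻¹ ∈ R := hRn.conj_mem b hb g
      have e : g * ((a * b)⁻¹ * (b * a)) * g⁻¹ =
          ((g * a * g⁻¹) * (g * b * g⁻¹))⁻¹ * ((g * b * g⁻¹) * (g * a * g⁻¹)) := by group
      rw [e]
      rw [hmemH _ (R.mul_mem (R.inv_mem (R.mul_mem ha' hb')) (R.mul_mem hb' ha'))]
      have : (⟨((g * a * g⁻¹) * (g * b * g⁻¹))⁻¹ * ((g * b * g⁻¹) * (g * a * g⁻¹)), R.mul_mem (R.inv_mem (R.mul_mem ha' hb')) (R.mul_mem hb' ha')⟩ : R)
          = ((⟨_, ha'⟩ : R) * ⟨_, hb'⟩)⁻¹ * ((⟨_, hb'⟩ : R) * ⟨_, ha'⟩) := rfl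
      rw [this, map_mul, map_inv, map_mul, map_mul, mul_comm (μ ⟨_, hb'⟩), inv_mul_cancel]
    · rintro _ ⟨a, ha, rfl⟩
      rw [← map_pow]
      apply (QuotientGroup.eq_one_iff _).mpr
      apply hmemK
      intro g
      have ha' : g * a * g⁻¹ ∈ R := hRn.conj_mem a ha g
      rw [← conj_pow, hmemH _ (R.pow_mem ha' p)]
      have : (⟨(g * a * g⁻¹) ^ p, R.pow_mem ha' p⟩ : R) = (⟨_, ha'⟩ : R) ^ p := rfl
      rw [this, map_pow, hC]
  have hidx' : (R.map π).index = p := by
    rw [Subgroup.index_map, QuotientGroup.ker_mk', sup_eq_left.mpr (hKH.trans hHR),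
      MonoidHom.range_eq_top.mpr hπs, Subgroup.index_top, mul_one, hidx]
  have hprod' : ((List.range p).map (fun i => ((π y) ^ i)⁻¹ * π x * (π y) ^ i)).prod ≠ 1 := by
    have e1 : ((List.range p).map (fun i => ((π y) ^ i)⁻¹ * π x * (π y) ^ i)).prod =
        π (R.subtype ((List.range p).map (fun i => (MulAut.conjNormal (y ^ i)⁻¹ x : R))).prod) := by
      rw [map_list_prod, map_list_prod, List.map_map, List.map_map]
      congr 1
      apply List.map_congr_left
      intro i _
      change _ = π ((MulAut.conjNormal (y ^ i)⁻¹ x : R) : P)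
      rw [MulAut.conjNormal_apply, inv_inv, map_mul, map_mul, map_inv, map_pow]
    rw [e1]
    intro h
    have h2 : (R.subtype ((List.range p).map (fun i => (MulAut.conjNormal (y ^ i)⁻¹ x : R))).prod) ∈ K :=
      (QuotientGroup.eq_one_iff _).mp h
    have h3 := (hmemH _ (Subtype.property _)).mp (hKH h2)
    apply hprod
    rw [← hom_list_prod_range μ (fun i => (MulAut.conjNormal (y ^ i)⁻¹ x : R)) p]
    exact h3
  obtain ⟨Q, f, hf⟩ := exists_surj (hP.to_quotient K) (R.map π) hEA hidx' (π x) (π y) ⟨x, x.2, rfl⟩ hprod'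
  exact ⟨Q, f.comp π, hf.comp hπs⟩

end Cfsg.Agent.H12.Yo
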