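import Mathlib

set_option autoImplicit false
set_option linter.unusedSimpArgs false
set_option linter.unusedSectionVars false

/-! Products of a cocycle over invariant subsets of a finite `K`-set. -/

namespace Cfsg.Agent.H12.Yo

open scoped Pointwise

variable {K : Type*} [Group K] {Ω : Type*} [MulAction K Ω] [Finite Ω] {C : Type*} [CommGroup C]

/-- cocycle condition -/
def IsCoc (c : K → Ω → C) : Prop := ∀ k k' ω, c (k * k') ω = c k (k' • ω) * c k' ω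

/-- product over a subset -/
noncomputable def TT (c : K → Ω → C) (Θ : Set Ω) (k : K) : C := ∏ᶠ ω ∈ Θ, c k ω

lemma prod_smul (f : Ω → C) (k : K) (Θ : Set Ω) : ∏ᶠ ω ∈ Θ, f (k • ω) = ∏ᶠ ω ∈ k • Θ, f ω := by
  rw [← Set.image_smul]
  exact (finprod_mem_image (fun a _ b _ h => MulAction.injective k h)).symm

lemma TT_mul {c : K → Ω → C} (hc : IsCoc c) {Θ : Set Ω} (k k' : K) (hk' : k' • Θ = Θ) :
    TT c Θ (k * k') = TT c Θ k * TT c Θ k' := by
  unfold TT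
  simp only [hc k k']
  rw [finprod_mem_mul_distrib (Set.toFinite Θ), prod_smul (c k) k' Θ, hk']

lemma TT_conj {c : K → Ω → C} (hc : IsCoc c) {Θ : Set Ω} (x y : K) (h : (y⁻¹ * x * y) • Θ = Θ) :
    TT c (y • Θ) x = TT c Θ (y⁻¹ * x * y) := by
  unfold TT
  rw [← prod_smul (c x) y Θ]
  have e : ∀ ω, c x (y • ω) * c y ω = c y ((y⁻¹ * x * y) • ω) * c (y⁻¹ * x * y) ω := by
    intro ω
    rw [← hc, ← hc]
    congr 1
    group
  have h1 : (∏ᶠ ω ∈ Θ, c x (y • ω)) * ∏ᶠ ω ∈ Θ, c y ω =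
      (∏ᶠ ω ∈ Θ, c y ((y⁻¹ * x * y) • ω)) * ∏ᶠ ω ∈ Θ, c (y⁻¹ * x * y) ω := by
    rw [← finprod_mem_mul_distrib (Set.toFinite Θ), ← finprod_mem_mul_distrib (Set.toFinite Θ)]
    simp only [e]
  rw [prod_smul (c y) (y⁻¹ * x * y) Θ, h, mul_comm] at h1
  exact mul_left_cancel h1

lemma coc_one {c : K → Ω → C} (hc : IsCoc c) (ω : Ω) : c 1 ω = 1 := by
  have := hc 1 1 ω
  rw [one_mul, one_smul] at this
  exact (mul_eq_left.mp this.symm)

lemma TT_eq_one [Finite K] {c : K → Ω → C} (hc : IsCoc c) {Θ : Set Ω} (u : K) (hu : u • Θ = Θ)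
    (h : ∀ ω ∈ Θ, ∀ m : ℕ, u ^ m • ω = ω → c (u ^ m) ω = 1) : TT c Θ u = 1 := by
  classical
  have hpow : ∀ (m : ℕ), u ^ m • Θ = Θ := by
    intro m
    induction m with
    | zero => simp
    | succ m ih => rw [pow_succ, mul_smul, hu, ih]
  have hmemΘ : ∀ (m : ℕ) (ω : Ω), ω ∈ Θ → u ^ m • ω ∈ Θ := by
    intro m ω hω
    rw [← hpow m]
    exact Set.smul_mem_smul_set hω
  -- representatives
  let s := MulAction.orbitRel (Subgroup.zpowers u) Ω
  let r : Ω → Ω := fun ω => (Quotient.mk s ω).out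
  have hr : ∀ ω, ∃ j : ℕ, u ^ j • r ω = ω := by
    intro ω
    have h1 : s (r ω) ω := Quotient.mk_out (s := s) ω
    have h2 : ω ∈ MulAction.orbit (Subgroup.zpowers u) (r ω) := by
      rw [MulAction.orbitRel_apply] at h1
      exact MulAction.mem_orbit_symm.mp h1
    obtain ⟨⟨z, hz⟩, hz'⟩ := h2
    rw [← (isOfFinOrder_of_finite u).mem_powers_iff_mem_zpowers] at hz
    obtain ⟨j, rfl⟩ := hz
    exact ⟨j, hz'⟩
  have hr' : ∀ ω, ∃ j : ℕ, u ^ j • ω = r ω := by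
    intro ω
    have h1 : s (r ω) ω := Quotient.mk_out (s := s) ω
    rw [MulAction.orbitRel_apply] at h1
    obtain ⟨⟨z, hz⟩, hz'⟩ := h1
    rw [← (isOfFinOrder_of_finite u).mem_powers_iff_mem_zpowers] at hz
    obtain ⟨j, rfl⟩ := hz
    exact ⟨j, hz'⟩
  have hru : ∀ ω, r (u • ω) = r ω := by
    intro ω
    have : Quotient.mk s (u • ω) = Quotient.mk s ω := by
      apply Quotient.sound
      change s _ _
      rw [MulAction.orbitRel_apply]
      exact ⟨⟨u, Subgroup.mem_zpowers u⟩, rfl⟩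
    simp only [r, this]
  choose j hj using hr
  let b : Ω → C := fun ω => c (u ^ j ω) (r ω)
  -- well-definedness
  have hW : ∀ ρ ∈ Θ, ∀ a d : ℕ, u ^ (a + d) • ρ = u ^ a • ρ → c (u ^ (a + d)) ρ = c (u ^ a) ρ := by
    intro ρ hρ a d had
    rw [add_comm, pow_add, hc, h _ (hmemΘ a ρ hρ) d (by rw [← mul_smul, ← pow_add, add_comm]; exact had), one_mul]
  have hW' : ∀ ρ ∈ Θ, ∀ a a' : ℕ, u ^ a • ρ = u ^ a' • ρ → c (u ^ a) ρ = c (u ^ a') ρ := by
    intro ρ hρ a a' haa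
    rcases le_total a a' with hle | hle
    · obtain ⟨d, rfl⟩ := Nat.exists_eq_add_of_le hle
      exact (hW ρ hρ a d haa.symm).symm
    · obtain ⟨d, rfl⟩ := Nat.exists_eq_add_of_le hle
      exact hW ρ hρ a' d haa
  have hkey : ∀ ω ∈ Θ, c u ω * b ω = b (u • ω) := by
    intro ω hω
    have hrΘ : r ω ∈ Θ := by
      obtain ⟨i, hi⟩ := hr' ω
      rw [← hi]; exact hmemΘ i ω hω
    change c u ω * c (u ^ j ω) (r ω) = c (u ^ j (u • ω)) (r (u • ω))
    rw [hru]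
    have e1 : c u ω * c (u ^ j ω) (r ω) = c (u ^ (j ω + 1)) (r ω) := by
      rw [pow_succ', hc, hj]
    rw [e1]
    apply hW' _ hrΘ
    have := hj (u • ω)
    rw [hru] at this
    rw [this, pow_succ', mul_smul, hj]
  have h1 : (∏ᶠ ω ∈ Θ, c u ω) * ∏ᶠ ω ∈ Θ, b ω = ∏ᶠ ω ∈ Θ, b (u • ω) := by
    rw [← finprod_mem_mul_distrib (Set.toFinite Θ)]
    exact finprod_mem_congr rfl hkey
  rw [prod_smul b u Θ, hu] at h1
  exact mul_eq_right.mp h1

end Cfsg.Agent.H12.Yo
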