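import Mathlib
import Cfsg.Agent.H12.Yo1

set_option autoImplicit false
set_option linter.unusedSimpArgs false
set_option linter.unusedSectionVars false

/-! The transfer as the product of a cocycle over the coset space. -/

namespace Cfsg.Agent.H12.Yo

open scoped Pointwise

variable {G : Type*} [Group G] {H : Subgroup G} {A : Type*} [CommGroup A]

open Classical in
/-- extension by `1` -/
noncomputable def ext (ϕ : H →* A) (g : G) : A := if h : g ∈ H then ϕ ⟨g, h⟩ else 1

lemma ext_of_mem (ϕ : H →* A) {g : G} (h : g ∈ H) : ext ϕ g = ϕ ⟨g, h⟩ := dif_pos h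

lemma ext_mul (ϕ : H →* A) {a b : G} (ha : a ∈ H) (hb : b ∈ H) : ext ϕ (a * b) = ext ϕ a * ext ϕ b := by
  rw [ext_of_mem ϕ ha, ext_of_mem ϕ hb, ext_of_mem ϕ (H.mul_mem ha hb), ← map_mul]
  rfl

/-- the transfer cocycle -/
noncomputable def coc (ϕ : H →* A) (g : G) (ω : G ⧸ H) : A := ext ϕ ((g • ω).out⁻¹ * g * ω.out)

lemma coc_mem (g : G) (ω : G ⧸ H) : (g • ω).out⁻¹ * g * ω.out ∈ H := by
  rw [mul_assoc, ← QuotientGroup.eq, QuotientGroup.out_eq']
  conv_lhs => rw [← QuotientGroup.out_eq' ω]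
  rfl

lemma isCoc_coc (ϕ : H →* A) : IsCoc (coc ϕ) := by
  intro k k' ω
  unfold coc
  rw [← ext_mul ϕ (coc_mem k (k' • ω)) (coc_mem k' ω), mul_smul]
  congr 1
  group

theorem transfer_eq [H.FiniteIndex] (ϕ : H →* A) (g : G) :
    MonoidHom.transfer ϕ g = ∏ᶠ ω : G ⧸ H, coc ϕ g ω := by
  classical
  letI := H.fintypeQuotientOfFiniteIndex
  let T : H.LeftTransversal :=
    ⟨Set.range Quotient.out, Subgroup.isComplement_range_left QuotientGroup.out_eq'⟩
  have hT : ∀ q : G ⧸ H, (T.2.leftQuotientEquiv q : G) = q.out :=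
    fun q => Subgroup.IsComplement.leftQuotientEquiv_apply QuotientGroup.out_eq' q
  have h1 : MonoidHom.transfer ϕ g = ∏ q : G ⧸ H, ext ϕ (q.out⁻¹ * (g * (g⁻¹ • q).out)) := by
    rw [MonoidHom.transfer_def ϕ T]
    unfold Subgroup.leftTransversals.diff
    apply Finset.prod_congr rfl
    intro q _
    have e : (T.2.leftQuotientEquiv q : G)⁻¹ * ((g • T).2.leftQuotientEquiv q : G) = q.out⁻¹ * (g * (g⁻¹ • q).out) := by
      rw [Subgroup.smul_apply_eq_smul_apply_inv_smul, hT, hT, smul_eq_mul]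
    have hmem : q.out⁻¹ * (g * (g⁻¹ • q).out) ∈ H := by
      have := coc_mem (H := H) g (g⁻¹ • q)
      rwa [smul_inv_smul, mul_assoc] at this
    rw [ext_of_mem ϕ hmem]
    congr 1
    exact Subtype.ext e
  rw [h1, finprod_eq_prod_of_fintype, ← Equiv.prod_comp (MulAction.toPerm g)]
  apply Finset.prod_congr rfl
  intro ω _
  unfold coc
  rw [MulAction.toPerm_apply, inv_smul_smul, mul_assoc]

end Cfsg.Agent.H12.Yo
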