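import Mathlib
import Cfsg.Agent.H12.Yo2
import Cfsg.Agent.H12.Yo3
import Cfsg.Agent.H1.Small2

set_option autoImplicit false
set_option linter.unusedSimpArgs false
set_option linter.unusedSectionVars false

/-! Yoshida's transfer theorem: the orbit computation. -/

namespace Cfsg.Agent.H12.Yo

open scoped Pointwise

variable {G : Type*} [Group G] [Finite G] {p : ℕ} [hpf : Fact p.Prime]

/-- no quotient `Z_p ≀ Z_p` -/
def NoWr (p : ℕ) [Fact p.Prime] (P : Type*) [Group P] : Prop :=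
  ¬ ∃ (Q : Sylow p (Equiv.Perm (Fin (p ^ 2)))) (f : P →* ↥(Q : Subgroup (Equiv.Perm (Fin (p ^ 2))))),
    Function.Surjective f

variable {S : Subgroup G} {C : Type*} [CommGroup C]

/-- the cocycle restricted to `S` -/
noncomputable def cS (χ : S →* C) (s : S) (ω : G ⧸ S) : C := coc χ (s : G) ω

lemma isCoc_cS (χ : S →* C) : IsCoc (cS χ) := fun k k' ω => isCoc_coc χ (k : G) (k' : G) ω

lemma cS_of_fixed (χ : S →* C) (s : S) (ω : G ⧸ S) (h : s • ω = ω) :
    ∃ hw : ω.out⁻¹ * (s : G) * ω.out ∈ S, cS χ s ω = χ ⟨_, hw⟩ := by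
  have h' : (s : G) • ω = ω := h
  have hw := coc_mem (H := S) (s : G) ω
  rw [h'] at hw
  refine ⟨hw, ?_⟩
  unfold cS coc
  rw [h', ext_of_mem χ hw]

section quot

variable {P : Type*} [Group P] {R : Subgroup P} [hRn : R.Normal]

lemma orderOf_mk (hRi : R.index = p) {y : P} (hy : y ∉ R) : orderOf (QuotientGroup.mk' R y) = p := by
  apply orderOf_eq_prime
  · have := pow_card_eq_one' (G := P ⧸ R) (x := QuotientGroup.mk' R y)
    rwa [← Subgroup.index_eq_card, hRi] at this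
  · intro h
    exact hy ((QuotientGroup.eq_one_iff y).mp h)

lemma exists_pow_mul (hRi : R.index = p) {y : P} (hy : y ∉ R) (s : P) : ∃ i < p, ∃ r ∈ R, s = y ^ i * r := by
  classical
  have hcard : Nat.card (P ⧸ R) = p := by rw [← Subgroup.index_eq_card, hRi]
  have hne : QuotientGroup.mk' R y ≠ 1 := fun h => hy ((QuotientGroup.eq_one_iff y).mp h)
  have hfin : Finite (P ⧸ R) := Nat.finite_of_card_ne_zero (by rw [hcard]; exact hpf.out.ne_zero)
  have h1 : QuotientGroup.mk' R s ∈ Subgroup.zpowers (QuotientGroup.mk' R y) := by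
    rw [zpowers_eq_top_of_prime_card hcard hne]; trivial
  rw [mem_zpowers_iff_mem_range_orderOf, orderOf_mk hRi hy] at h1
  obtain ⟨i, hi, hi'⟩ := Finset.mem_image.mp h1
  refine ⟨i, Finset.mem_range.mp hi, (y ^ i)⁻¹ * s, ?_, by group⟩
  rw [← map_pow] at hi'
  exact QuotientGroup.eq.mp hi'

lemma eq_of_pow_mem (hRi : R.index = p) {y : P} (hy : y ∉ R) {i j : ℕ} (hi : i < p) (hj : j < p)
    (h : (y ^ j)⁻¹ * y ^ i ∈ R) : i = j := by
  have h1 : (QuotientGroup.mk' R y) ^ j = (QuotientGroup.mk' R y) ^ i := by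
    rw [← map_pow, ← map_pow]
    exact QuotientGroup.eq.mpr h
  have := pow_injOn_Iio_orderOf (x := QuotientGroup.mk' R y)
  rw [orderOf_mk hRi hy] at this
  exact (this hj hi h1).symm

lemma dvd_of_pow_mem (hRi : R.index = p) {y : P} (hy : y ∉ R) {m : ℕ} (h : y ^ m ∈ R) : p ∣ m := by
  rw [← orderOf_mk hRi hy]
  apply orderOf_dvd_of_pow_eq_one
  rw [← map_pow]
  exact (QuotientGroup.eq_one_iff _).mpr h

end quot

theorem orbit_one (hS : IsPGroup p S) (hC : ∀ c : C, c ^ p = 1) (χ : S →* C) (hnw : NoWr p S) (u : S)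
    (hmin : ∀ s : S, χ s ≠ 1 → orderOf u ≤ orderOf s) (hu1 : u ≠ 1) (ω0 : G ⧸ S)
    (hω0 : ω0 ∉ MulAction.fixedPoints S (G ⧸ S)) : TT (cS χ) (MulAction.orbit S ω0) u = 1 := by
  classical
  have hc := isCoc_cS χ
  have hQ : MulAction.stabilizer S ω0 ≠ ⊤ := by
    intro h
    apply hω0
    intro s
    have : s ∈ MulAction.stabilizer S ω0 := by rw [h]; trivial
    exact this
  obtain ⟨R, hR, hQR⟩ := (eq_top_or_exists_le_coatom (MulAction.stabilizer S ω0)).resolve_left hQ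
  obtain ⟨hRn, hRi⟩ := Cfsg.H1.coatom_of_pgroup hS R hR
  have hstab : ∀ ω ∈ MulAction.orbit S ω0, ∀ v : S, v • ω = ω → v ∈ R := by
    rintro _ ⟨s, rfl⟩ v hv
    have h1 : (s⁻¹ * v * s) ∈ MulAction.stabilizer S ω0 := by
      change (s⁻¹ * v * s) • ω0 = ω0
      rw [mul_smul, mul_smul]
      change s⁻¹ • v • (fun m : S => m • ω0) s = ω0
      rw [hv]
      exact inv_smul_smul s ω0
    have h2 := hRn.conj_mem _ (hQR h1) s
    simpa [mul_assoc] using h2
  have horb : ∀ s : S, s • MulAction.orbit S ω0 = MulAction.orbit S ω0 := fun s => MulAction.smul_orbit s ω0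
  by_cases huR : u ∈ R
  · obtain ⟨y, hy⟩ : ∃ y : S, y ∉ R := by
      by_contra hcon
      push Not at hcon
      exact hR.1 (eq_top_iff.mpr fun x _ => hcon x)
    set Θ0 : Set (G ⧸ S) := (fun r : S => r • ω0) '' (R : Set S) with hΘ0
    have hΘ0inv : ∀ r ∈ R, r • Θ0 = Θ0 := by
      intro r hr
      ext ω
      constructor
      · rintro ⟨_, ⟨r', hr', rfl⟩, rfl⟩
        exact ⟨r * r', R.mul_mem hr hr', mul_smul _ _ _⟩
      · rintro ⟨r', hr', rfl⟩
        refine ⟨(r⁻¹ * r') • ω0, ⟨r⁻¹ * r', R.mul_mem (R.inv_mem hr) hr', rfl⟩, ?_⟩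
        change r • (r⁻¹ * r') • ω0 = r' • ω0
        rw [← mul_smul, mul_inv_cancel_left]
    let μ : R →* C := MonoidHom.mk' (fun r => TT (cS χ) Θ0 (r : S)) (fun r r' => TT_mul hc _ _ (hΘ0inv r' r'.2))
    have hunion : MulAction.orbit S ω0 = ⋃ i ∈ (Finset.range p : Set ℕ), y ^ i • Θ0 := by
      ext ω
      simp only [Set.mem_iUnion]
      constructor
      · rintro ⟨s, rfl⟩
        obtain ⟨i, hi, r, hr, rfl⟩ := exists_pow_mul hRi hy s
        exact ⟨i, by simpa using hi, r • ω0, ⟨r, hr, rfl⟩, (mul_smul _ _ _).symm⟩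
      · rintro ⟨i, _, _, ⟨r, _, rfl⟩, rfl⟩
        exact ⟨y ^ i * r, mul_smul _ _ _⟩
    have hdisj : (Finset.range p : Set ℕ).PairwiseDisjoint (fun i => y ^ i • Θ0) := by
      intro i hi j hj hij
      rw [Function.onFun, Set.disjoint_left]
      rintro _ ⟨_, ⟨r, hr, rfl⟩, rfl⟩ ⟨_, ⟨r', hr', rfl⟩, he⟩
      apply hij
      have hi' : i < p := by simpa using hi
      have hj' : j < p := by simpa using hj
      have he' : y ^ j • r' • ω0 = y ^ i • r • ω0 := he
      have h1 : ((y ^ j * r')⁻¹ * (y ^ i * r)) ∈ MulAction.stabilizer S ω0 := by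
        change ((y ^ j * r')⁻¹ * (y ^ i * r)) • ω0 = ω0
        rw [mul_smul, mul_smul (y ^ i), ← he', ← mul_smul (y ^ j), inv_smul_smul]
      have h2 := hQR h1
      apply eq_of_pow_mem hRi hy hi' hj'
      have h3 : (y ^ j)⁻¹ * y ^ i = r' * ((y ^ j * r')⁻¹ * (y ^ i * r)) * r⁻¹ := by group
      rw [h3]
      exact R.mul_mem (R.mul_mem hr' h2) (R.inv_mem hr)
    have hcalc : TT (cS χ) (MulAction.orbit S ω0) u =
        ∏ i ∈ Finset.range p, μ (MulAut.conjNormal (y ^ i)⁻¹ ⟨u, huR⟩) := by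
      unfold TT
      rw [hunion, finprod_mem_biUnion hdisj (Set.toFinite _) (fun _ _ => Set.toFinite _), finprod_mem_coe_finset]
      apply Finset.prod_congr rfl
      intro i _
      have hmem : (y ^ i)⁻¹ * u * y ^ i ∈ R := by
        have := hRn.conj_mem u huR (y ^ i)⁻¹
        simpa using this
      have := TT_conj hc (Θ := Θ0) u (y ^ i) (hΘ0inv _ hmem)
      unfold TT at this
      rw [this]
      change _ = TT (cS χ) Θ0 ((MulAut.conjNormal (y ^ i)⁻¹ (⟨u, huR⟩ : R) : R) : S)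
      rw [MulAut.conjNormal_apply, inv_inv]
      rfl
    by_contra hne
    rw [hcalc] at hne
    exact hnw (exists_surj_rel hS R hRi hC μ ⟨u, huR⟩ y hne)
  · apply TT_eq_one hc u (horb u)
    intro ω hω m hm
    have h1 : u ^ m ∈ R := hstab ω hω _ hm
    have hpm : p ∣ m := dvd_of_pow_mem hRi huR h1
    obtain ⟨hw, hcw⟩ := cS_of_fixed χ (u ^ m) ω hm
    rw [hcw]
    by_contra hne
    have h2 := hmin _ hne
    have h3 : orderOf (⟨ω.out⁻¹ * ((u ^ m : S) : G) * ω.out, hw⟩ : S) = orderOf (u ^ m) := by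
      rw [← Subgroup.orderOf_coe, ← Subgroup.orderOf_coe (u ^ m)]
      change orderOf (ω.out⁻¹ * ((u ^ m : S) : G) * ω.out) = _
      have := MulEquiv.orderOf_eq (MulAut.conj (ω.out⁻¹ : G)) ((u ^ m : S) : G)
      rwa [MulAut.conj_apply, inv_inv] at this
    rw [h3, orderOf_pow] at h2
    obtain ⟨k, hk⟩ := (IsPGroup.iff_orderOf.mp hS) u
    have hk0 : k ≠ 0 := by
      rintro rfl
      rw [pow_zero, orderOf_eq_one_iff] at hk
      exact hu1 hk
    have hpu : p ∣ orderOf u := by rw [hk]; exact dvd_pow_self p hk0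
    have hg : p ∣ Nat.gcd (orderOf u) m := Nat.dvd_gcd hpu hpm
    have hpos : 0 < orderOf u := orderOf_pos u
    have hg1 : 1 < Nat.gcd (orderOf u) m :=
      lt_of_lt_of_le hpf.out.one_lt (Nat.le_of_dvd (Nat.gcd_pos_of_pos_left _ hpos) hg)
    have := Nat.div_lt_self hpos hg1
    omega

end Cfsg.Agent.H12.Yo
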