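import Mathlib
import Cfsg.Agent.H12.Yo4

set_option autoImplicit false
set_option linter.unusedSimpArgs false
set_option linter.unusedSectionVars false

/-! Abstract lemmas for the Hall--Wielandt transfer theorem. -/

namespace Cfsg.Agent.H12.HW

open scoped Pointwise
open Cfsg.Agent.H12.Yo Cfsg.Agent.H12.Wr Polynomial

variable {p : ℕ} [hpf : Fact p.Prime]

lemma sum_iter {M : Type*} [AddCommGroup M] [Module (ZMod p) M] (T : M →+ M) (m : M) :
    ∑ i ∈ Finset.range p, T^[i] m = (fun x => T x - x)^[p - 1] m := by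
  let T' : Module.End (ZMod p) M := T.toZModLinearMap p
  have h2 : (∑ i ∈ Finset.range p, T' ^ i) = (T' - 1) ^ (p - 1) := by
    have := congrArg (aeval T') (geom_eq_pow (p := p))
    simpa using this
  have h3 := congrArg (fun f : Module.End (ZMod p) M => f m) h2
  simp only [LinearMap.sum_apply, Module.End.pow_apply] at h3
  exact h3

lemma prod_iter {M : Type*} [CommGroup M] (hM : ∀ x : M, x ^ p = 1) (T : M →* M) (m : M) :
    ∏ i ∈ Finset.range p, T^[i] m = (fun x => T x / x)^[p - 1] m := by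
  have h : ∀ x : Additive M, p • x = 0 := fun x => hM (Additive.toMul x)
  have := @sum_iter p _ (Additive M) _ (AddCommGroup.zmodModule h) (MonoidHom.toAdditive T) (Additive.ofMul m)
  exact this

lemma hom_prod_iter {R C : Type*} [Group R] [CommGroup C] (hC : ∀ c : C, c ^ p = 1) (τ : R →* R) (μ : R →* C)
    (u : R) : ∏ i ∈ Finset.range p, μ (τ^[i] u) = μ ((fun r => r⁻¹ * τ r)^[p - 1] u) := by
  let T : (R →* C) →* (R →* C) := MonoidHom.mk' (fun ν => ν.comp τ) (fun a b => rfl)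
  have h1 := prod_iter (p := p) (M := R →* C) (fun ν => by ext r; simp [hC]) T μ
  have e1 : ∀ (i : ℕ) (ν : R →* C) (r : R), (T^[i] ν) r = ν (τ^[i] r) := by
    intro i
    induction i with
    | zero => intro ν r; rfl
    | succ i ih =>
      intro ν r
      rw [Function.iterate_succ_apply, ih, Function.iterate_succ_apply']
      rfl
  have e2 : ∀ (k : ℕ) (ν : R →* C) (r : R),
      ((fun x => T x / x)^[k] ν) r = ν ((fun r => r⁻¹ * τ r)^[k] r) := by
    intro k
    induction k with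
    | zero => intro ν r; rfl
    | succ k ih =>
      intro ν r
      rw [Function.iterate_succ_apply, ih, Function.iterate_succ_apply']
      change ν (τ _) / ν _ = ν (_⁻¹ * τ _)
      rw [map_mul, map_inv, div_eq_mul_inv, mul_comm]
  have h2 := congrArg (fun ν : R →* C => ν u) h1
  simp only [MonoidHom.finset_prod_apply, e1, e2] at h2
  exact h2

variable {K : Type*} [Group K] [Finite K] {Ω : Type*} [MulAction K Ω] [Finite Ω] {C : Type*} [CommGroup C]

theorem orbit_prod {c : K → Ω → C} (hc : IsCoc c) (R : Subgroup K) [hRn : R.Normal] (hRi : R.index = p) (ω0 : Ω)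
    (hQR : MulAction.stabilizer K ω0 ≤ R) (u : K) (huR : u ∈ R) (y : K) (hy : y ∉ R) :
    ∃ μ : R →* C, TT c (MulAction.orbit K ω0) u =
      ∏ i ∈ Finset.range p, μ (MulAut.conjNormal (y ^ i)⁻¹ ⟨u, huR⟩) := by
  classical
  set Θ0 : Set Ω := (fun r : K => r • ω0) '' (R : Set K) with hΘ0
  have hΘ0inv : ∀ r ∈ R, r • Θ0 = Θ0 := by
    intro r hr
    ext ω
    constructor
    · rintro ⟨_, ⟨r', hr', rfl⟩, rfl⟩
      exact ⟨r * r', R.mul_mem hr hr', mul_smul _ _ _⟩
    · rintro ⟨r', hr', rfl⟩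
      refine ⟨(r⁻¹ * r') • ω0, ⟨r⁻¹ * r', R.mul_mem (R.inv_mem hr) hr', rfl⟩, ?_⟩
      change r • (r⁻¹ * r') • ω0 = r' • ω0
      rw [← mul_smul, mul_inv_cancel_left]
  let μ : R →* C := MonoidHom.mk' (fun r => TT c Θ0 (r : K)) (fun r r' => TT_mul hc _ _ (hΘ0inv r' r'.2))
  refine ⟨μ, ?_⟩
  have hunion : MulAction.orbit K ω0 = ⋃ i ∈ (Finset.range p : Set ℕ), y ^ i • Θ0 := by
    ext ω
    simp only [Set.mem_iUnion]
    constructor
    · rintro ⟨s, rfl⟩
      obtain ⟨i, hi, r, hr, rfl⟩ := exists_pow_mul hRi hy s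
      exact ⟨i, by simpa using hi, r • ω0, ⟨r, hr, rfl⟩, (mul_smul _ _ _).symm⟩
    · rintro ⟨i, _, _, ⟨r, _, rfl⟩, rfl⟩
      exact ⟨y ^ i * r, mul_smul _ _ _⟩
  have hdisj : (Finset.range p : Set ℕ).PairwiseDisjoint (fun i => y ^ i • Θ0) := by
    intro i hi j hj hij
    rw [Function.onFun, Set.disjoint_left]
    rintro _ ⟨_, ⟨r, hr, rfl⟩, rfl⟩ ⟨_, ⟨r', hr', rfl⟩, he⟩
    apply hij
    have hi' : i < p := by simpa using hi
    have hj' : j < p := by simpa using hj
    have he' : y ^ j • r' • ω0 = y ^ i • r • ω0 := he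
    have h1 : ((y ^ j * r')⁻¹ * (y ^ i * r)) ∈ MulAction.stabilizer K ω0 := by
      change ((y ^ j * r')⁻¹ * (y ^ i * r)) • ω0 = ω0
      rw [mul_smul, mul_smul (y ^ i), ← he', ← mul_smul (y ^ j), inv_smul_smul]
    have h2 := hQR h1
    apply eq_of_pow_mem hRi hy hi' hj'
    have h3 : (y ^ j)⁻¹ * y ^ i = r' * ((y ^ j * r')⁻¹ * (y ^ i * r)) * r⁻¹ := by group
    rw [h3]
    exact R.mul_mem (R.mul_mem hr' h2) (R.inv_mem hr)
  unfold TT
  rw [hunion, finprod_mem_biUnion hdisj (Set.toFinite _) (fun _ _ => Set.toFinite _), finprod_mem_coe_finset]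
  apply Finset.prod_congr rfl
  intro i _
  have hmem : (y ^ i)⁻¹ * u * y ^ i ∈ R := by
    have := hRn.conj_mem u huR (y ^ i)⁻¹
    simpa using this
  have := TT_conj hc (Θ := Θ0) u (y ^ i) (hΘ0inv _ hmem)
  unfold TT at this
  rw [this]
  change _ = TT c Θ0 ((MulAut.conjNormal (y ^ i)⁻¹ (⟨u, huR⟩ : R) : R) : K)
  rw [MulAut.conjNormal_apply, inv_inv]
  rfl

theorem TT_invariant_one {c : K → Ω → C} (k : K) :
    ∀ (n : ℕ) (Θ : Set Ω), Θ.ncard = n → (∀ s : K, s • Θ = Θ) →
      (∀ ω ∈ Θ, TT c (MulAction.orbit K ω) k = 1) → TT c Θ k = 1 := by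
  intro n
  induction n using Nat.strong_induction_on with
  | _ n ih =>
    intro Θ hn hinv hone
    rcases Set.eq_empty_or_nonempty Θ with rfl | ⟨ω0, hω0⟩
    · unfold TT; simp
    have hO : MulAction.orbit K ω0 ⊆ Θ := by
      rintro _ ⟨s, rfl⟩
      rw [← hinv s]
      exact Set.smul_mem_smul_set hω0
    have h1 := hone ω0 hω0
    have hlt : (Θ \ MulAction.orbit K ω0).ncard < n := by
      rw [← hn]
      apply Set.ncard_lt_ncard _ (Set.toFinite _)
      refine ⟨Set.diff_subset, fun h => ?_⟩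
      exact (h hω0).2 (MulAction.mem_orbit_self ω0)
    have h2 := ih _ hlt (Θ \ MulAction.orbit K ω0) rfl (by
      intro s
      rw [Set.smul_set_sdiff, hinv s, MulAction.smul_orbit]) (fun ω hω => hone ω hω.1)
    unfold TT at h1 h2 ⊢
    rw [← finprod_mem_mul_diff hO (Set.toFinite _), h1, h2, one_mul]

lemma conjNormal_iter {R : Subgroup K} [hRn : R.Normal] (y : K) (x : R) (i : ℕ) :
    (MulAut.conjNormal y⁻¹ : MulAut R).toMonoidHom^[i] x = MulAut.conjNormal (y ^ i)⁻¹ x := by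
  induction i with
  | zero => simp
  | succ i ih =>
    rw [Function.iterate_succ_apply', ih]
    apply Subtype.ext
    change ((MulAut.conjNormal y⁻¹ (MulAut.conjNormal (y ^ i)⁻¹ x) : R) : K) = _
    rw [MulAut.conjNormal_apply, MulAut.conjNormal_apply, MulAut.conjNormal_apply, pow_succ]
    group

end Cfsg.Agent.H12.HW
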