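import Mathlib
import Cfsg.Agent.H12.Yo4

set_option autoImplicit false
set_option linter.unusedSimpArgs false
set_option linter.unusedSectionVars false

/-! Yoshida's transfer theorem. -/

namespace Cfsg.Agent.H12.Yo

open scoped Pointwise

variable {G : Type*} [Group G] [Finite G] {p : ℕ} [hpf : Fact p.Prime]
variable {S : Subgroup G} {C : Type*} [CommGroup C]

lemma mem_normalizer_of_conj_le {g : G} (h : ∀ s ∈ S, g⁻¹ * s * g ∈ S) : g ∈ Subgroup.normalizer (S : Set G) := by
  rw [Subgroup.mem_normalizer_iff'']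
  intro x
  refine ⟨h x, fun hx => ?_⟩
  let f : S → S := fun s => ⟨g⁻¹ * s * g, h s s.2⟩
  have hf : Function.Injective f := by
    intro a b hab
    have := congrArg Subtype.val hab
    simp only [f] at this
    exact Subtype.ext (by simpa using this)
  obtain ⟨s, hs⟩ := (Finite.injective_iff_surjective.mp hf) ⟨_, hx⟩
  have := congrArg Subtype.val hs
  simp only [f] at this
  have e : (s : G) = x := by simpa using this
  rw [← e]; exact s.2

theorem compl_one (hS : IsPGroup p S) (hC : ∀ c : C, c ^ p = 1) (χ : S →* C) (hnw : NoWr p S) (u : S)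
    (hmin : ∀ s : S, χ s ≠ 1 → orderOf u ≤ orderOf s) (hu1 : u ≠ 1) :
    ∀ (n : ℕ) (Θ : Set (G ⧸ S)), Θ.ncard = n → (∀ s : S, s • Θ = Θ) →
      (∀ ω ∈ Θ, ω ∉ MulAction.fixedPoints S (G ⧸ S)) → TT (cS χ) Θ u = 1 := by
  intro n
  induction n using Nat.strong_induction_on with
  | _ n ih =>
    intro Θ hn hinv hfix
    rcases Set.eq_empty_or_nonempty Θ with rfl | ⟨ω0, hω0⟩
    · unfold TT; simp
    have hO : MulAction.orbit S ω0 ⊆ Θ := by
      rintro _ ⟨s, rfl⟩
      rw [← hinv s]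
      exact Set.smul_mem_smul_set hω0
    have h1 := orbit_one hS hC χ hnw u hmin hu1 ω0 (hfix ω0 hω0)
    have hlt : (Θ \ MulAction.orbit S ω0).ncard < n := by
      rw [← hn]
      apply Set.ncard_lt_ncard _ (Set.toFinite _)
      refine ⟨Set.diff_subset, fun h => ?_⟩
      exact (h hω0).2 (MulAction.mem_orbit_self ω0)
    have h2 := ih _ hlt (Θ \ MulAction.orbit S ω0) rfl (by
      intro s
      rw [Set.smul_set_sdiff, hinv s, MulAction.smul_orbit]) (fun ω hω => hfix ω hω.1)
    unfold TT at h1 h2 ⊢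
    rw [← finprod_mem_mul_diff hO (Set.toFinite _), h1, h2, one_mul]

theorem exists_transfer_ne_one (hS : IsPGroup p S) (hidx : ¬ p ∣ S.index) (hC : ∀ c : C, c ^ p = 1) (χ : S →* C)
    (hχ : ∃ s, χ s ≠ 1)
    (hinv : ∀ g ∈ Subgroup.normalizer (S : Set G), ∀ (s : S) (h : g⁻¹ * (s : G) * g ∈ S), χ ⟨_, h⟩ = χ s)
    (hnw : NoWr p S) : ∃ u : S, MonoidHom.transfer χ (u : G) ≠ 1 := by
  classical
  obtain ⟨u, hu, hmin⟩ := Set.exists_min_image {s : S | χ s ≠ 1} orderOf (Set.toFinite _) hχ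
  have hu' : χ u ≠ 1 := hu
  have hu1 : u ≠ 1 := by
    rintro rfl
    exact hu' (map_one χ)
  refine ⟨u, ?_⟩
  set F := MulAction.fixedPoints S (G ⧸ S) with hF
  have h1 : MonoidHom.transfer χ (u : G) = TT (cS χ) F u * TT (cS χ) (Set.univ \ F) u := by
    rw [transfer_eq]
    unfold TT
    rw [finprod_mem_mul_diff (Set.subset_univ F) (Set.toFinite _), finprod_mem_univ]
    rfl
  have h2 : TT (cS χ) (Set.univ \ F) u = 1 := by
    refine compl_one hS hC χ hnw u (fun s hs => hmin s hs) hu1 _ _ rfl ?_ (fun ω hω => hω.2)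
    intro s
    have hFs : s • F = F := by
      ext ω
      constructor
      · rintro ⟨ω', hω', rfl⟩
        change s • ω' ∈ F
        rw [hω' s]; exact hω'
      · intro hω
        exact ⟨ω, hω, hω s⟩
    rw [Set.smul_set_sdiff, hFs, Set.smul_set_univ]
  have h3 : TT (cS χ) F u = χ u ^ F.ncard := by
    unfold TT
    have : ∀ ω ∈ F, cS χ u ω = χ u := by
      intro ω hω
      obtain ⟨hw, hcw⟩ := cS_of_fixed χ u ω (hω u)
      rw [hcw]
      refine hinv _ (mem_normalizer_of_conj_le ?_) u hw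
      intro s hs
      exact (cS_of_fixed χ ⟨s, hs⟩ ω (hω ⟨s, hs⟩)).choose
    rw [finprod_mem_congr rfl this, finprod_mem_eq_finite_toFinset_prod _ (Set.toFinite F), Finset.prod_const,
      Set.ncard_eq_toFinset_card F (Set.toFinite F)]
  rw [h1, h2, h3, mul_one]
  intro hpow
  have ho : orderOf (χ u) = p := orderOf_eq_prime (hC _) hu'
  have hd : p ∣ F.ncard := by
    rw [← ho]; exact orderOf_dvd_of_pow_eq_one hpow
  have hmod := hS.card_modEq_card_fixedPoints (G ⧸ S)
  apply hidx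
  rw [Subgroup.index_eq_card]
  have h4 : Nat.card (MulAction.fixedPoints S (G ⧸ S)) = F.ncard := rfl
  rw [h4] at hmod
  exact (Nat.modEq_zero_iff_dvd.mp (hmod.trans (Nat.modEq_zero_iff_dvd.mpr hd)))

end Cfsg.Agent.H12.Yo
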