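import Mathlib
import Cfsg.Prelude.Def_PLocal
import Cfsg.Agent.H12.HW1
import Cfsg.Agent.H12.Yo5
import Cfsg.Agent.H12.Zj6

set_option autoImplicit false
set_option linter.unusedSimpArgs false
set_option linter.unusedSectionVars false

/-! Transfer and weakly closed subgroups: the orbit computation. -/

namespace Cfsg.Agent.H12.HW

open scoped Pointwise
open Cfsg.Agent.H12.Yo

variable {G : Type*} [Group G] [Finite G] {p : ℕ} [hpf : Fact p.Prime]

/-- the conclusion of the weakly closed transfer theorem -/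
def Concl (p : ℕ) (S W : Subgroup G) : Prop :=
  ∃ x ∈ S, ∃ z ∈ W, ∃ W₀ : Subgroup ↥W, IsCoatom W₀ ∧
    (fun y : G => y⁻¹ * z⁻¹ * y * z)^[p - 1] x ∈ W₀.map W.subtype ∧
    (fun y : G => y⁻¹ * z⁻¹ * y * z)^[p - 1] x ∉ ((frattini ↥W₀).map W₀.subtype).map W.subtype

variable {S : Subgroup G} {C : Type*} [CommGroup C]

lemma conj_mem_of_wc {W : Subgroup G} (hW : Cfsg.IsWeaklyClosed W S) {s w : G} (hs : s ∈ S) (hw : w ∈ W) :
    s * w * s⁻¹ ∈ W := by
  have h1 : W.map (MulAut.conj s).toMonoidHom ≤ S := by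
    rintro _ ⟨v, hv, rfl⟩
    exact S.mul_mem (S.mul_mem hs (hW.1 hv)) (S.inv_mem hs)
  rw [← hW.2 s h1]
  exact ⟨w, hw, rfl⟩

lemma mem_normalizer_of_map_eq {W : Subgroup G} {g : G} (h : W.map (MulAut.conj g).toMonoidHom = W) :
    g ∈ Subgroup.normalizer (W : Set G) := by
  rw [Subgroup.mem_normalizer_iff]
  intro x
  constructor
  · intro hx
    rw [← h]
    exact ⟨x, hx, rfl⟩
  · intro hx
    rw [← h] at hx
    obtain ⟨v, hv, hv'⟩ := hx
    have : v = x := by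
      have h2 : g * v * g⁻¹ = g * x * g⁻¹ := hv'
      simpa using h2
    rwa [← this]

/-- the auxiliary group `W⟨u⟩` -/
def XX (W : Subgroup G) (u : S) : Subgroup S := W.subgroupOf S ⊔ Subgroup.zpowers u

/-- the cocycle restricted to `W⟨u⟩` -/
noncomputable def cX (χ : S →* C) (W : Subgroup G) (u : S) (x : XX W u) (ω : G ⧸ S) : C := cS χ (x : S) ω

lemma isCoc_cX (χ : S →* C) (W : Subgroup G) (u : S) : IsCoc (cX χ W u) :=
  fun k k' ω => isCoc_cS χ (k : S) (k' : S) ω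

lemma u_mem (W : Subgroup G) (u : S) : u ∈ XX W u := Subgroup.mem_sup_right (Subgroup.mem_zpowers u)

theorem orbit_nofix (hS : IsPGroup p S) (χ : S →* C) (W : Subgroup G) (u : S)
    (hmin : ∀ s : S, χ s ≠ 1 → orderOf u ≤ orderOf s) (hu1 : u ≠ 1) (ω0 : G ⧸ S)
    (hnf : ∀ ω ∈ MulAction.orbit (XX W u) ω0, u • ω ≠ ω) :
    TT (cX χ W u) (MulAction.orbit (XX W u) ω0) ⟨u, u_mem W u⟩ = 1 := by
  classical
  apply TT_eq_one (isCoc_cX χ W u) _ (MulAction.smul_orbit _ ω0)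
  intro ω hω m hm
  have hm' : u ^ m • ω = ω := hm
  obtain ⟨k, hk⟩ := (IsPGroup.iff_orderOf.mp hS) u
  have hpm : p ∣ m := by
    by_contra hnd
    have hcop : Nat.Coprime m (orderOf u) := by
      rw [hk]
      exact Nat.Coprime.pow_right _ ((Nat.Prime.coprime_iff_not_dvd hpf.out).mpr hnd).symm
    obtain ⟨j, hj⟩ := exists_pow_eq_self_of_coprime hcop
    apply hnf ω hω
    have h1 : u ^ m ∈ MulAction.stabilizer S ω := hm'
    have h2 := (MulAction.stabilizer S ω).pow_mem h1 j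
    rw [hj] at h2
    exact h2
  obtain ⟨hw, hcw⟩ := cS_of_fixed χ (u ^ m) ω hm'
  change cS χ (u ^ m) ω = 1
  rw [hcw]
  by_contra hne
  have h2 := hmin _ hne
  have h3 : orderOf (⟨ω.out⁻¹ * ((u ^ m : S) : G) * ω.out, hw⟩ : S) = orderOf (u ^ m) := by
    rw [← Subgroup.orderOf_coe, ← Subgroup.orderOf_coe (u ^ m)]
    change orderOf (ω.out⁻¹ * ((u ^ m : S) : G) * ω.out) = _
    have := MulEquiv.orderOf_eq (MulAut.conj (ω.out⁻¹ : G)) ((u ^ m : S) : G)
    rwa [MulAut.conj_apply, inv_inv] at this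
  rw [h3, orderOf_pow] at h2
  have hk0 : k ≠ 0 := by
    rintro rfl
    rw [pow_zero, orderOf_eq_one_iff] at hk
    exact hu1 hk
  have hpu : p ∣ orderOf u := by rw [hk]; exact dvd_pow_self p hk0
  have hg : p ∣ Nat.gcd (orderOf u) m := Nat.dvd_gcd hpu hpm
  have hpos : 0 < orderOf u := orderOf_pos u
  have hg1 : 1 < Nat.gcd (orderOf u) m :=
    lt_of_lt_of_le hpf.out.one_lt (Nat.le_of_dvd (Nat.gcd_pos_of_pos_left _ hpos) hg)
  have := Nat.div_lt_self hpos hg1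
  omega

theorem orbit_fix (hS : IsPGroup p S) (hC : ∀ c : C, c ^ p = 1) (χ : S →* C) (W : Subgroup G)
    (hW : Cfsg.IsWeaklyClosed W S) (hno : ¬ Concl p S W) (u : S) (ω1 : G ⧸ S) (hu : u • ω1 = ω1)
    (hω1 : ∃ w : S, (w : G) ∈ W ∧ w • ω1 ≠ ω1) :
    TT (cX χ W u) (MulAction.orbit (XX W u) ω1) ⟨u, u_mem W u⟩ = 1 := by
  classical
  set X := XX W u with hXdef
  have hX : IsPGroup p X := hS.to_subgroup X
  let ιW : ↥W →* X := MonoidHom.mk' (fun w => ⟨⟨(w : G), hW.1 w.2⟩, Subgroup.mem_sup_left (show _ ∈ W from w.2)⟩)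
    (fun a b => rfl)
  obtain ⟨w0, hw0W, hw0⟩ := hω1
  have hQ : MulAction.stabilizer X ω1 ≠ ⊤ := by
    intro h
    apply hw0
    have : ιW ⟨(w0 : G), hw0W⟩ ∈ MulAction.stabilizer X ω1 := by rw [h]; trivial
    exact this
  obtain ⟨R, hR, hQR⟩ := (eq_top_or_exists_le_coatom (MulAction.stabilizer X ω1)).resolve_left hQ
  obtain ⟨hRn, hRi⟩ := Cfsg.H1.coatom_of_pgroup hX R hR
  have huR : (⟨u, u_mem W u⟩ : X) ∈ R := hQR hu
  obtain ⟨z, hz⟩ : ∃ z : ↥W, ιW z ∉ R := by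
    by_contra hcon
    push Not at hcon
    apply hR.1
    rw [eq_top_iff]
    have h1 : X ≤ R.map X.subtype := by
      change W.subgroupOf S ⊔ Subgroup.zpowers u ≤ R.map X.subtype
      rw [sup_le_iff]
      constructor
      · intro w hw
        exact ⟨ιW ⟨(w : G), hw⟩, hcon _, rfl⟩
      · rw [Subgroup.zpowers_le]
        exact ⟨_, huR, rfl⟩
    intro x _
    obtain ⟨r, hr, hr'⟩ := h1 x.2
    have : r = x := Subtype.ext hr'
    rwa [← this]
  obtain ⟨μ, hμ⟩ := orbit_prod (isCoc_cX χ W u) R hRi ω1 hQR ⟨u, u_mem W u⟩ huR (ιW z) hz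
  rw [hμ]
  simp only [← conjNormal_iter]
  rw [hom_prod_iter hC]
  set f : R → R := fun r => r⁻¹ * (MulAut.conjNormal (ιW z)⁻¹ : MulAut R).toMonoidHom r with hf
  set g : G → G := fun y => y⁻¹ * (z : G)⁻¹ * y * (z : G) with hg
  have hfg : ∀ r : R, (((f r : R) : X) : S).1 = g (((r : X) : S) : G) := by
    intro r
    change ((r : X) : S).1⁻¹ * ((z : G)⁻¹ * ((r : X) : S).1 * (z : G)⁻¹⁻¹) = _
    simp only [hg, inv_inv, mul_assoc]
  have hiter : ∀ (k : ℕ) (r : R), (((f^[k] r : R) : X) : S).1 = g^[k] (((r : X) : S) : G) := by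
    intro k
    induction k with
    | zero => intro r; rfl
    | succ k ih => intro r; rw [Function.iterate_succ_apply, ih, hfg, Function.iterate_succ_apply]
  set eR : R := f^[p - 1] ⟨⟨u, u_mem W u⟩, huR⟩ with heR
  have heG : (((eR : R) : X) : S).1 = g^[p - 1] (u : G) := hiter _ _
  have heW : (((eR : R) : X) : S).1 ∈ W := by
    obtain ⟨k, hk⟩ : ∃ k, p - 1 = k + 1 := ⟨p - 2, by have := hpf.out.two_le; omega⟩
    rw [heR, hk, Function.iterate_succ_apply', hfg]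
    set r := f^[k] ⟨⟨u, u_mem W u⟩, huR⟩
    have h1 := conj_mem_of_wc hW (S.inv_mem ((r : X) : S).2) (W.inv_mem z.2)
    have h2 := W.mul_mem h1 z.2
    simpa [hg, mul_assoc] using h2
  set W₀ : Subgroup ↥W := R.comap ιW with hW₀
  have hidx : W₀.index = p := by
    rw [hW₀, Subgroup.index_comap, ← Subgroup.relIndex_sup_left]
    have : R ⊔ ιW.range = ⊤ := by
      apply hR.2
      refine lt_of_le_of_ne le_sup_left ?_
      intro h
      apply hz
      rw [h]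
      exact Subgroup.mem_sup_right ⟨z, rfl⟩
    rw [this, Subgroup.relIndex_top_right, hRi]
  have hco : IsCoatom W₀ := Cfsg.Agent.H12.Zj.isCoatom_of_index_prime hidx
  have hιe : ιW ⟨_, heW⟩ = (eR : X) := rfl
  have hmem0 : (⟨_, heW⟩ : ↥W) ∈ W₀ := by
    change ιW ⟨_, heW⟩ ∈ R
    rw [hιe]; exact eR.2
  have h1 : g^[p - 1] (u : G) ∈ W₀.map W.subtype := by
    rw [← heG]
    exact ⟨⟨_, heW⟩, hmem0, rfl⟩
  have h2 : g^[p - 1] (u : G) ∈ ((frattini ↥W₀).map W₀.subtype).map W.subtype := by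
    by_contra hcon
    exact hno ⟨u, u.2, z, z.2, W₀, hco, h1, hcon⟩
  obtain ⟨_, ⟨φ0, hφ0, rfl⟩, hφ0'⟩ := h2
  let j : ↥W₀ →* R := MonoidHom.mk' (fun w => ⟨ιW (w : ↥W), w.2⟩) (fun a b => rfl)
  have hfr : frattini ↥W₀ ≤ (μ.comp j).ker := by
    apply Cfsg.H1.frattini_pgroup_le p
    · rw [commutator_def, Subgroup.commutator_le]
      intro a _ b _
      rw [MonoidHom.mem_ker, map_commutatorElement, commutatorElement_eq_one_iff_mul_comm]
      exact mul_comm _ _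
    · intro x
      rw [MonoidHom.mem_ker, map_pow, hC]
  have h3 : μ (j φ0) = 1 := hfr hφ0
  have h4 : j φ0 = eR := by
    apply Subtype.ext
    apply Subtype.ext
    apply Subtype.ext
    rw [heG]
    exact hφ0'
  rw [← h4]
  exact h3

end Cfsg.Agent.H12.HW
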