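import Mathlib
import Cfsg.Agent.H12.Yo5

set_option autoImplicit false
set_option linter.unusedSimpArgs false
set_option linter.unusedSectionVars false

/-! Yoshida's transfer theorem. -/

namespace Cfsg.Agent.H12.Yo

variable {G : Type*} [Group G] [Finite G] {p : ℕ} [hpf : Fact p.Prime]

lemma transfer_comp_hom {A B : Type*} {H : Subgroup G} [CommGroup A] [CommGroup B]
    (φ : H →* A) (f : A →* B) (g : G) : (f.comp φ).transfer g = f (φ.transfer g) := by
  classical
  let := H.fintypeQuotientOfFiniteIndex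
  rw [MonoidHom.transfer_eq_prod_quotient_orbitRel_zpowers_quot,
    MonoidHom.transfer_eq_prod_quotient_orbitRel_zpowers_quot, map_prod]
  rfl

theorem yoshida (S : Sylow p G) (hnw : NoWr p (S : Subgroup G)) :
    (S : Subgroup G) ⊓ commutator G ≤
      ⁅Subgroup.normalizer ((S : Subgroup G) : Set G), Subgroup.normalizer ((S : Subgroup G) : Set G)⁆ := by
  set N := Subgroup.normalizer ((S : Subgroup G) : Set G) with hN
  have hSN : (S : Subgroup G) ≤ N := Subgroup.le_normalizer
  let ρ0 : (S : Subgroup G) →* Abelianization N := Abelianization.of.comp (Subgroup.inclusion hSN)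
  let ρ : (S : Subgroup G) →* ρ0.range := ρ0.rangeRestrict
  have hρs : Function.Surjective ρ := ρ0.rangeRestrict_surjective
  let V : G →* ρ0.range := MonoidHom.transfer ρ
  let ψ : (S : Subgroup G) →* ρ0.range := V.comp (S : Subgroup G).subtype
  have hAp : IsPGroup p ρ0.range := IsPGroup.of_surjective S.2 ρ hρs
  have hmemN : ∀ s : (S : Subgroup G), ρ s = 1 ↔ (s : G) ∈ ⁅N, N⁆ := by
    intro s
    have h1 : ρ s = 1 ↔ ρ0 s = 1 := by
      constructor
      · intro h; exact congrArg Subtype.val h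
      · intro h; exact Subtype.ext h
    have h2 : ρ0 s = 1 ↔ Subgroup.inclusion hSN s ∈ commutator N := by
      rw [← Abelianization.ker_of, MonoidHom.mem_ker]; rfl
    rw [h1, h2, ← Subgroup.map_subtype_commutator]
    exact (Subgroup.mem_map_iff_mem N.subtype_injective (x := Subgroup.inclusion hSN s)).symm
  have hψs : Function.Surjective ψ := by
    rw [← MonoidHom.range_eq_top]
    by_contra hne
    obtain ⟨A0, hA0, hle⟩ := (eq_top_or_exists_le_coatom ψ.range).resolve_left hne
    obtain ⟨hA0n, hA0i⟩ := Cfsg.H1.coatom_of_pgroup hAp A0 hA0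
    let lam : ρ0.range →* ρ0.range ⧸ A0 := QuotientGroup.mk' A0
    have hC : ∀ c : ρ0.range ⧸ A0, c ^ p = 1 := by
      intro c
      have := pow_card_eq_one' (G := ρ0.range ⧸ A0) (x := c)
      rwa [← Subgroup.index_eq_card, hA0i] at this
    have hχ : ∃ s, (lam.comp ρ) s ≠ 1 := by
      by_contra hcon
      push Not at hcon
      apply hA0.1
      rw [eq_top_iff]
      intro a _
      obtain ⟨s, rfl⟩ := hρs a
      exact (QuotientGroup.eq_one_iff _).mp (hcon s)
    have hinv : ∀ g ∈ Subgroup.normalizer ((S : Subgroup G) : Set G), ∀ (s : (S : Subgroup G))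
        (h : g⁻¹ * (s : G) * g ∈ (S : Subgroup G)), (lam.comp ρ) ⟨_, h⟩ = (lam.comp ρ) s := by
      intro g hg s h
      have e : ρ ⟨_, h⟩ = ρ s := by
        apply Subtype.ext
        change Abelianization.of (Subgroup.inclusion hSN ⟨_, h⟩) = Abelianization.of (Subgroup.inclusion hSN s)
        have e2 : Subgroup.inclusion hSN ⟨g⁻¹ * (s : G) * g, h⟩ =
            (⟨g, hg⟩ : N)⁻¹ * Subgroup.inclusion hSN s * ⟨g, hg⟩ := rfl
        rw [e2, map_mul, map_mul, map_inv, mul_comm, mul_inv_cancel_left]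
      rw [MonoidHom.comp_apply, MonoidHom.comp_apply, e]
    obtain ⟨u, hu⟩ := exists_transfer_ne_one S.2 S.not_dvd_index hC (lam.comp ρ) hχ hinv hnw
    apply hu
    rw [transfer_comp_hom]
    exact (QuotientGroup.eq_one_iff _).mpr (hle ⟨u, rfl⟩)
  have hVc : ∀ x ∈ commutator G, V x = 1 := fun x hx => Abelianization.commutator_subset_ker V hx
  have hker : ρ.ker ≤ ψ.ker := by
    intro s hs
    have h1 : (s : G) ∈ ⁅N, N⁆ := (hmemN s).mp hs
    exact hVc _ (Subgroup.commutator_mono le_top le_top h1)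
  have hker' : ψ.ker ≤ ρ.ker := by
    have h1 := Subgroup.relIndex_mul_index hker
    rw [Subgroup.index_ker, Subgroup.index_ker, MonoidHom.range_eq_top.mpr hψs, MonoidHom.range_eq_top.mpr hρs] at h1
    have hpos : 0 < Nat.card (⊤ : Subgroup ρ0.range) := Nat.card_pos
    have h2 : ρ.ker.relIndex ψ.ker = 1 := Nat.eq_of_mul_eq_mul_right hpos (by rw [h1, one_mul])
    exact Subgroup.relIndex_eq_one.mp h2
  rintro x ⟨hxS, hxG⟩
  exact (hmemN ⟨x, hxS⟩).mp (hker' (hVc x hxG))

end Cfsg.Agent.H12.Yo
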