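import Mathlib
import Cfsg.Agent.H12.HW2
import Cfsg.Agent.H12.Yo6

set_option autoImplicit false
set_option linter.unusedSimpArgs false
set_option linter.unusedSectionVars false

/-! Transfer and weakly closed subgroups. -/

namespace Cfsg.Agent.H12.HW

open scoped Pointwise
open Cfsg.Agent.H12.Yo

variable {G : Type*} [Group G] [Finite G] {p : ℕ} [hpf : Fact p.Prime]
variable {S : Subgroup G} {C : Type*} [CommGroup C]

theorem exists_transfer_ne_one_W (hS : IsPGroup p S) (hidx : ¬ p ∣ S.index) (hC : ∀ c : C, c ^ p = 1) (χ : S →* C)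
    (hχ : ∃ s, χ s ≠ 1) (W : Subgroup G) (hW : Cfsg.IsWeaklyClosed W S)
    (hinv : ∀ g ∈ Subgroup.normalizer (W : Set G), ∀ (s : S) (h : g⁻¹ * (s : G) * g ∈ S), χ ⟨_, h⟩ = χ s)
    (hno : ¬ Concl p S W) : ∃ u : S, MonoidHom.transfer χ (u : G) ≠ 1 := by
  classical
  obtain ⟨u, hu, hmin⟩ := Set.exists_min_image {s : S | χ s ≠ 1} orderOf (Set.toFinite _) hχ
  have hu' : χ u ≠ 1 := hu
  have hu1 : u ≠ 1 := by
    rintro rfl
    exact hu' (map_one χ)
  refine ⟨u, ?_⟩
  set F := MulAction.fixedPoints ↥W (G ⧸ S) with hF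
  have hFmem : ∀ (s : S) (ω : G ⧸ S), ω ∈ F → s • ω ∈ F := by
    intro s ω hω w
    have h1 := conj_mem_of_wc hW (S.inv_mem s.2) w.2
    have h2 : (⟨_, h1⟩ : ↥W) • ω = ω := hω _
    have h3 : ((s : G)⁻¹ * (w : G) * (s : G)⁻¹⁻¹) • ω = ω := h2
    change (w : G) • (s : G) • ω = (s : G) • ω
    conv_rhs => rw [← h3]
    rw [← mul_smul, ← mul_smul]
    congr 1
    group
  have hFs : ∀ s : S, s • F = F := by
    intro s
    ext ω
    constructor
    · rintro ⟨ω', hω', rfl⟩
      exact hFmem s ω' hω'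
    · intro hω
      exact ⟨s⁻¹ • ω, hFmem s⁻¹ ω hω, smul_inv_smul s ω⟩
  have h1 : MonoidHom.transfer χ (u : G) = TT (cS χ) F u * TT (cS χ) (Set.univ \ F) u := by
    rw [transfer_eq]
    unfold TT
    rw [finprod_mem_mul_diff (Set.subset_univ F) (Set.toFinite _), finprod_mem_univ]
    rfl
  have h2 : TT (cS χ) (Set.univ \ F) u = 1 := by
    have hX : ∀ x : XX W u, x • (Set.univ \ F) = Set.univ \ F := by
      intro x
      have : (x : S) • (Set.univ \ F) = Set.univ \ F := by
        rw [Set.smul_set_sdiff, hFs, Set.smul_set_univ]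
      exact this
    refine TT_invariant_one (K := XX W u) (c := cX χ W u) ⟨u, u_mem W u⟩ _ _ rfl hX ?_
    intro ω0 hω0
    by_cases hfix : ∃ ω ∈ MulAction.orbit (XX W u) ω0, u • ω = ω
    · obtain ⟨ω1, hω1, hu1'⟩ := hfix
      rw [← MulAction.orbit_eq_iff.mpr hω1]
      apply orbit_fix hS hC χ W hW hno u ω1 hu1'
      have hω1F : ω1 ∉ F := by
        obtain ⟨x, rfl⟩ := hω1
        have : x • ω0 ∈ x • (Set.univ \ F) := Set.smul_mem_smul_set hω0
        rw [hX x] at this
        exact this.2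
      by_contra hcon
      push Not at hcon
      apply hω1F
      intro w
      exact hcon ⟨(w : G), hW.1 w.2⟩ w.2
    · push Not at hfix
      exact orbit_nofix hS χ W u (fun s hs => hmin s hs) hu1 ω0 hfix
  have hout : ∀ ω ∈ F, (ω.out : G) ∈ Subgroup.normalizer (W : Set G) := by
    intro ω hω
    have h3 : W.map (MulAut.conj (ω.out : G)⁻¹).toMonoidHom ≤ S := by
      rintro _ ⟨w, hw, rfl⟩
      have := (cS_of_fixed χ ⟨w, hW.1 hw⟩ ω (hω ⟨w, hw⟩)).choose
      simpa using this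
    have h4 := mem_normalizer_of_map_eq (hW.2 _ h3)
    simpa using (Subgroup.normalizer (W : Set G)).inv_mem h4
  have h3 : TT (cS χ) F u = χ u ^ F.ncard := by
    let c' : S → G ⧸ S → C := fun k ω => cS χ k ω * (χ k)⁻¹
    have hc' : IsCoc c' := by
      intro k k' ω
      change cS χ (k * k') ω * (χ (k * k'))⁻¹ = cS χ k (k' • ω) * (χ k)⁻¹ * (cS χ k' ω * (χ k')⁻¹)
      rw [isCoc_cS χ k k' ω, map_mul, mul_inv]
      exact mul_mul_mul_comm _ _ _ _
    have h4 : TT c' F u = 1 := by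
      apply TT_eq_one hc' u (hFs u)
      intro ω hω m hm
      obtain ⟨hw, hcw⟩ := cS_of_fixed χ (u ^ m) ω hm
      change cS χ (u ^ m) ω * (χ (u ^ m))⁻¹ = 1
      rw [hcw, hinv _ (hout ω hω) (u ^ m) hw, mul_inv_cancel]
    unfold TT at h4 ⊢
    rw [finprod_mem_mul_distrib (Set.toFinite F)] at h4
    rw [finprod_mem_eq_finite_toFinset_prod (fun _ => (χ u)⁻¹) (Set.toFinite F), Finset.prod_const,
      ← Set.ncard_eq_toFinset_card F (Set.toFinite F), inv_pow] at h4
    exact mul_inv_eq_one.mp h4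
  rw [h1, h2, h3, mul_one]
  intro hpow
  have ho : orderOf (χ u) = p := orderOf_eq_prime (hC _) hu'
  have hd : p ∣ F.ncard := by
    rw [← ho]; exact orderOf_dvd_of_pow_eq_one hpow
  have hWp : IsPGroup p ↥W := hS.to_le hW.1
  have hmod := hWp.card_modEq_card_fixedPoints (G ⧸ S)
  apply hidx
  rw [Subgroup.index_eq_card]
  have h4 : Nat.card (MulAction.fixedPoints ↥W (G ⧸ S)) = F.ncard := rfl
  rw [h4] at hmod
  exact (Nat.modEq_zero_iff_dvd.mp (hmod.trans (Nat.modEq_zero_iff_dvd.mpr hd)))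

theorem weakly_closed_transfer (S : Sylow p G) (W : Subgroup G) (hW : Cfsg.IsWeaklyClosed W (S : Subgroup G))
    (hno : ¬ Concl p (S : Subgroup G) W) :
    (S : Subgroup G) ⊓ commutator G ≤ ⁅Subgroup.normalizer (W : Set G), Subgroup.normalizer (W : Set G)⁆ := by
  set N := Subgroup.normalizer (W : Set G) with hN
  have hSN : (S : Subgroup G) ≤ N := by
    intro s hs
    apply mem_normalizer_of_map_eq
    apply hW.2
    rintro _ ⟨v, hv, rfl⟩
    exact (S : Subgroup G).mul_mem ((S : Subgroup G).mul_mem hs (hW.1 hv)) ((S : Subgroup G).inv_mem hs)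
  let ρ0 : (S : Subgroup G) →* Abelianization N := Abelianization.of.comp (Subgroup.inclusion hSN)
  let ρ : (S : Subgroup G) →* ρ0.range := ρ0.rangeRestrict
  have hρs : Function.Surjective ρ := ρ0.rangeRestrict_surjective
  let V : G →* ρ0.range := MonoidHom.transfer ρ
  let ψ : (S : Subgroup G) →* ρ0.range := V.comp (S : Subgroup G).subtype
  have hAp : IsPGroup p ρ0.range := IsPGroup.of_surjective S.2 ρ hρs
  have hmemN : ∀ s : (S : Subgroup G), ρ s = 1 ↔ (s : G) ∈ ⁅N, N⁆ := by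
    intro s
    have h1 : ρ s = 1 ↔ ρ0 s = 1 := by
      constructor
      · intro h; exact congrArg Subtype.val h
      · intro h; exact Subtype.ext h
    have h2 : ρ0 s = 1 ↔ Subgroup.inclusion hSN s ∈ commutator N := by
      rw [← Abelianization.ker_of, MonoidHom.mem_ker]; rfl
    rw [h1, h2, ← Subgroup.map_subtype_commutator]
    exact (Subgroup.mem_map_iff_mem N.subtype_injective (x := Subgroup.inclusion hSN s)).symm
  have hψs : Function.Surjective ψ := by
    rw [← MonoidHom.range_eq_top]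
    by_contra hne
    obtain ⟨A0, hA0, hle⟩ := (eq_top_or_exists_le_coatom ψ.range).resolve_left hne
    obtain ⟨hA0n, hA0i⟩ := Cfsg.H1.coatom_of_pgroup hAp A0 hA0
    let lam : ρ0.range →* ρ0.range ⧸ A0 := QuotientGroup.mk' A0
    have hC : ∀ c : ρ0.range ⧸ A0, c ^ p = 1 := by
      intro c
      have := pow_card_eq_one' (G := ρ0.range ⧸ A0) (x := c)
      rwa [← Subgroup.index_eq_card, hA0i] at this
    have hχ : ∃ s, (lam.comp ρ) s ≠ 1 := by
      by_contra hcon
      push Not at hcon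
      apply hA0.1
      rw [eq_top_iff]
      intro a _
      obtain ⟨s, rfl⟩ := hρs a
      exact (QuotientGroup.eq_one_iff _).mp (hcon s)
    have hinv : ∀ g ∈ Subgroup.normalizer (W : Set G), ∀ (s : (S : Subgroup G))
        (h : g⁻¹ * (s : G) * g ∈ (S : Subgroup G)), (lam.comp ρ) ⟨_, h⟩ = (lam.comp ρ) s := by
      intro g hg s h
      have e : ρ ⟨_, h⟩ = ρ s := by
        apply Subtype.ext
        change Abelianization.of (Subgroup.inclusion hSN ⟨_, h⟩) = Abelianization.of (Subgroup.inclusion hSN s)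
        have e2 : Subgroup.inclusion hSN ⟨g⁻¹ * (s : G) * g, h⟩ =
            (⟨g, hg⟩ : N)⁻¹ * Subgroup.inclusion hSN s * ⟨g, hg⟩ := rfl
        rw [e2, map_mul, map_mul, map_inv, mul_comm, mul_inv_cancel_left]
      rw [MonoidHom.comp_apply, MonoidHom.comp_apply, e]
    obtain ⟨u, hu⟩ := exists_transfer_ne_one_W S.2 S.not_dvd_index hC (lam.comp ρ) hχ W hW hinv hno
    apply hu
    rw [transfer_comp_hom]
    exact (QuotientGroup.eq_one_iff _).mpr (hle ⟨u, rfl⟩)
  have hVc : ∀ x ∈ commutator G, V x = 1 := fun x hx => Abelianization.commutator_subset_ker V hx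
  have hker : ρ.ker ≤ ψ.ker := by
    intro s hs
    have h1 : (s : G) ∈ ⁅N, N⁆ := (hmemN s).mp hs
    exact hVc _ (Subgroup.commutator_mono le_top le_top h1)
  have hker' : ψ.ker ≤ ρ.ker := by
    have h1 := Subgroup.relIndex_mul_index hker
    rw [Subgroup.index_ker, Subgroup.index_ker, MonoidHom.range_eq_top.mpr hψs, MonoidHom.range_eq_top.mpr hρs] at h1
    have hpos : 0 < Nat.card (⊤ : Subgroup ρ0.range) := Nat.card_pos
    have h2 : ρ.ker.relIndex ψ.ker = 1 := Nat.eq_of_mul_eq_mul_right hpos (by rw [h1, one_mul])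
    exact Subgroup.relIndex_eq_one.mp h2
  rintro x ⟨hxS, hxG⟩
  exact (hmemN ⟨x, hxS⟩).mp (hker' (hVc x hxG))

end Cfsg.Agent.H12.HW
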