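import Mathlib
import Cfsg.Prelude.Def_Transfer
import Cfsg.Prelude.Def_BaumannBlocks
import Cfsg.Agent.Lib.Helper16.Tate
import Cfsg.Agent.Lib.Helper8.Transfer
import Cfsg.Agent.Fus.Residual

set_option autoImplicit false
set_option linter.unusedSimpArgs false
set_option linter.unusedSectionVars false

/-! Tate's theorem: control of transfer implies control of the largest `p`-factor group. -/

namespace Cfsg.Agent.H12.HW

open scoped Pointwise commutatorElement

variable {G : Type*} [Group G] [Finite G] {p : ℕ} [hpf : Fact p.Prime]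

lemma eq_one_of_pow_coprime {C : Type*} [Group C] {c : C} {r : ℕ} (h1 : c ^ p = 1) (h2 : c ^ r = 1)
    (hr : Nat.Coprime r p) : c = 1 := by
  have h3 : orderOf c ∣ Nat.gcd r p := Nat.dvd_gcd (orderOf_dvd_of_pow_eq_one h2) (orderOf_dvd_of_pow_eq_one h1)
  rw [hr, Nat.dvd_one, orderOf_eq_one_iff] at h3
  exact h3

lemma hom_kills (S : Sylow p G) (H : Subgroup G) (hSH : (S : Subgroup G) ≤ H)
    (h : (S : Subgroup G) ⊓ commutator G ≤ ⁅H, H⁆) {C : Type*} [CommGroup C] (hC : ∀ c : C, c ^ p = 1)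
    (δ : H →* C) (x : H) (hx : (x : G) ∈ commutator G) : δ x = 1 := by
  have h0 : orderOf x ≠ 0 := (orderOf_pos x).ne'
  set a := (orderOf x).factorization p
  set r := orderOf x / p ^ a with hr
  have hrc : Nat.Coprime r p := (Nat.coprime_ordCompl hpf.out h0).symm
  have hdvd : r ∣ orderOf x := Nat.ordCompl_dvd _ _
  have hr0 : r ≠ 0 := fun h => h0 (by rw [h] at hdvd; exact Nat.eq_zero_of_zero_dvd hdvd)
  have hy : orderOf (x ^ r) = p ^ a := by
    rw [orderOf_pow_of_dvd hr0 hdvd, hr]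
    exact Nat.div_div_self (Nat.ordProj_dvd _ _) h0
  have hyp : IsPGroup p (Subgroup.zpowers (x ^ r)) := by
    apply IsPGroup.of_card (n := a)
    rw [Nat.card_zpowers, hy]
  obtain ⟨Q, hQ⟩ := hyp.exists_le_sylow
  obtain ⟨g, hg⟩ := MulAction.exists_smul_eq H Q (S.subtype hSH)
  have h3 : MulAut.conj g • (x ^ r) ∈ MulAut.conj g • (Q : Subgroup H) :=
    Subgroup.smul_mem_pointwise_smul _ (MulAut.conj g) _ (hQ (Subgroup.mem_zpowers _))
  rw [MulAut.smul_def, MulAut.conj_apply] at h3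
  have h4 : g * x ^ r * g⁻¹ ∈ ((S.subtype hSH : Sylow p H) : Subgroup H) := by
    rw [← hg]; exact h3
  have h5 : ((g * x ^ r * g⁻¹ : H) : G) ∈ (S : Subgroup G) := h4
  have h6 : ((g * x ^ r * g⁻¹ : H) : G) ∈ commutator G := by
    have hn : (commutator G).Normal := inferInstance
    exact hn.conj_mem _ ((commutator G).pow_mem hx r) (g : G)
  have h7 : ((g * x ^ r * g⁻¹ : H) : G) ∈ ⁅H, H⁆ := h ⟨h5, h6⟩
  rw [← Subgroup.map_subtype_commutator] at h7
  have h8 : (g * x ^ r * g⁻¹ : H) ∈ commutator H :=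
    (Subgroup.mem_map_iff_mem H.subtype_injective (x := (g * x ^ r * g⁻¹ : H))).mp h7
  have h9 : δ (g * x ^ r * g⁻¹) = 1 := Abelianization.commutator_subset_ker δ h8
  rw [map_mul, map_mul, map_inv, mul_comm, inv_mul_cancel_left, map_pow] at h9
  exact eq_one_of_pow_coprime (hC _) h9 hrc

lemma extend_hom (S : Sylow p G) (H : Subgroup G) (hSH : (S : Subgroup G) ≤ H)
    (h : (S : Subgroup G) ⊓ commutator G ≤ ⁅H, H⁆) {C : Type*} [CommGroup C] (hC : ∀ c : C, c ^ p = 1)
    (δ : H →* C) : ∃ δ' : G →* C, ∀ x : H, δ' (x : G) = δ x := by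
  have hidx : ¬ p ∣ H.index := fun hd => S.not_dvd_index (hd.trans (Subgroup.index_dvd_of_le hSH))
  have hcop : Nat.Coprime H.index p := ((Nat.Prime.coprime_iff_not_dvd hpf.out).mpr hidx).symm
  obtain ⟨m', -, hm'⟩ := Nat.exists_mul_mod_eq_one_of_coprime hcop hpf.out.one_lt
  refine ⟨(powMonoidHom m').comp (MonoidHom.transfer δ), fun x => ?_⟩
  have h1 : MonoidHom.transfer δ (x : G) = δ ⟨(x : G), x.2⟩ ^ H.index := by
    apply Cfsg.Agent.Lib.Helper8.transfer_eq_pow_of_map
    intro k g₀ hk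
    have h2 : δ (⟨g₀⁻¹ * (x : G) ^ k * g₀, hk⟩ * (x ^ k)⁻¹) = 1 := by
      apply hom_kills S H hSH h hC
      change g₀⁻¹ * (x : G) ^ k * g₀ * ((x : G) ^ k)⁻¹ ∈ commutator G
      have : g₀⁻¹ * (x : G) ^ k * g₀ * ((x : G) ^ k)⁻¹ = ⁅g₀⁻¹, (x : G) ^ k⁆ := by
        rw [commutatorElement_def, inv_inv]
      rw [this]
      exact Subgroup.commutator_mem_commutator (Subgroup.mem_top _) (Subgroup.mem_top _)
    rw [map_mul, map_inv, mul_inv_eq_one, map_pow] at h2
    exact h2
  change (MonoidHom.transfer δ (x : G)) ^ m' = δ x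
  rw [h1, ← pow_mul]
  change δ x ^ (H.index * m') = δ x
  conv_lhs => rw [← Nat.div_add_mod (H.index * m') p]
  rw [hm', pow_add, pow_mul, hC, one_pow, one_mul, pow_one]

theorem tate_control (S : Sylow p G) (H : Subgroup G) (hSH : (S : Subgroup G) ≤ H)
    (h : (S : Subgroup G) ⊓ commutator G ≤ ⁅H, H⁆) :
    Cfsg.pResidualOf p H = Cfsg.pResidual p G ⊓ H := by
  apply le_antisymm
  · apply le_inf
    · unfold Cfsg.pResidualOf Cfsg.pResidual
      rw [Subgroup.map_le_iff_le_comap, Subgroup.closure_le]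
      intro x hx
      apply Subgroup.subset_closure
      change Nat.Coprime (orderOf (x : G)) p
      rw [Subgroup.orderOf_coe]
      exact hx
    · exact Subgroup.map_subtype_le _
  · have hn : (Cfsg.pResidual p ↥H).Normal := Cfsg.Agent.Fus.pResidual_normal' p ↥H
    have hq : IsPGroup p (↥H ⧸ Cfsg.pResidual p ↥H) := by
      intro y
      obtain ⟨x, rfl⟩ := QuotientGroup.mk'_surjective _ y
      obtain ⟨k, hk⟩ := Cfsg.Agent.Fus.exists_pow_mem_pResidual (p := p) x
      refine ⟨k, ?_⟩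
      rw [← map_pow]
      exact (QuotientGroup.eq_one_iff _).2 hk
    obtain ⟨n, hn'⟩ := IsPGroup.iff_card.1 hq
    have hidx : ¬ p ∣ H.subtype.range.index := by
      rw [Subgroup.range_subtype]
      exact fun hd => S.not_dvd_index (hd.trans (Subgroup.index_dvd_of_le hSH))
    obtain ⟨φ, hφ⟩ := Cfsg.Agent.Lib.Helper16.tate_extend H.subtype H.subtype_injective hidx (by
      intro C _ hCc hCp δ
      let _ : CommGroup C := { (inferInstance : Group C) with mul_comm := hCc }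
      exact extend_hom S H hSH h hCp δ) n (↥H ⧸ Cfsg.pResidual p ↥H) hn' (QuotientGroup.mk' _)
    have hker : Cfsg.pResidual p G ≤ φ.ker := by
      unfold Cfsg.pResidual
      rw [Subgroup.closure_le]
      intro g hg
      have hg' : Nat.Coprime (orderOf g) p := hg
      obtain ⟨k, hk⟩ := hq (φ g)
      have h1 : orderOf (φ g) ∣ orderOf g := orderOf_map_dvd φ g
      have h2 : orderOf (φ g) ∣ p ^ k := orderOf_dvd_of_pow_eq_one hk
      have h3 : orderOf (φ g) ∣ Nat.gcd (orderOf g) (p ^ k) := Nat.dvd_gcd h1 h2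
      rw [Nat.Coprime.pow_right k hg', Nat.dvd_one, orderOf_eq_one_iff] at h3
      exact h3
    rintro x ⟨hx1, hx2⟩
    refine ⟨⟨x, hx2⟩, ?_, rfl⟩
    have h1 : φ x = 1 := hker hx1
    have h2 := hφ ⟨x, hx2⟩
    apply (QuotientGroup.eq_one_iff (N := Cfsg.pResidual p ↥H) (⟨x, hx2⟩ : H)).mp
    change QuotientGroup.mk' _ (⟨x, hx2⟩ : H) = 1
    rw [← h2]
    exact h1

end Cfsg.Agent.H12.HW
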