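import Mathlib
import Cfsg.Agent.H12.HW3
import Cfsg.Agent.H12.HW4

set_option autoImplicit false
set_option linter.unusedSimpArgs false
set_option linter.unusedSectionVars false

/-! The Hall--Wielandt theorem. -/

namespace Cfsg.Agent.H12.HW

open scoped commutatorElement

variable {G : Type*} [Group G] [Finite G] {p : ℕ} [hpf : Fact p.Prime]

theorem hall_wielandt (P : Sylow p G) (Q : Subgroup G) (hQ : Cfsg.IsWeaklyClosed Q (P : Subgroup G))
    (h : ∀ u ∈ (P : Subgroup G), ∀ z ∈ Q, (fun y : G => y⁻¹ * z⁻¹ * y * z)^[p - 1] u = 1) :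
    Cfsg.pResidualOf p (Subgroup.normalizer (Q : Set G)) =
      Cfsg.pResidual p G ⊓ Subgroup.normalizer (Q : Set G) := by
  have hno : ¬ Concl p (P : Subgroup G) Q := by
    rintro ⟨x, hx, z, hz, W₀, -, -, h3⟩
    apply h3
    rw [h x hx z hz]
    exact Subgroup.one_mem _
  have hPN : (P : Subgroup G) ≤ Subgroup.normalizer (Q : Set G) := by
    intro s hs
    apply mem_normalizer_of_map_eq
    apply hQ.2
    rintro _ ⟨v, hv, rfl⟩
    exact (P : Subgroup G).mul_mem ((P : Subgroup G).mul_mem hs (hQ.1 hv)) ((P : Subgroup G).inv_mem hs)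
  exact tate_control P _ hPN (weakly_closed_transfer P Q hQ hno)

lemma weaklyClosed_self (P : Subgroup G) : Cfsg.IsWeaklyClosed P P := by
  refine ⟨le_rfl, fun g hg => ?_⟩
  apply Subgroup.eq_of_le_of_card_ge hg
  rw [Subgroup.card_map_of_injective (MulAut.conj g).injective]

lemma iter_mem_lcs (P : Subgroup G) {u z : G} (hu : u ∈ P) (hz : z ∈ P) (k : ℕ) :
    (fun y : G => y⁻¹ * z⁻¹ * y * z)^[k] u ∈ P.lowerCentralSeries k := by
  induction k with
  | zero => exact hu
  | succ k ih =>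
    rw [Function.iterate_succ_apply', Subgroup.lowerCentralSeries_succ]
    set y := (fun y : G => y⁻¹ * z⁻¹ * y * z)^[k] u
    have e : y⁻¹ * z⁻¹ * y * z = ⁅y⁻¹, z⁻¹⁆ := by
      rw [commutatorElement_def, inv_inv, inv_inv]
    change y⁻¹ * z⁻¹ * y * z ∈ _
    rw [e]
    exact Subgroup.commutator_mem_commutator (Subgroup.inv_mem _ ih) (P.inv_mem hz)

end Cfsg.Agent.H12.HW
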