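import Mathlib
import Cfsg.Agent.H12.K5d

set_option autoImplicit false

/-! The K-infinity theorem with a quadratic chief factor, all primes. -/

namespace Cfsg.Agent.H12

open Cfsg
open scoped commutatorElement

universe u

section two

variable {G : Type*} [Group G]

lemma comm_zpowers_le_of_actTriv {A B : Subgroup G} {x : G} (hx : x ∈ actTriv A B) : ⁅A, Subgroup.zpowers x⁆ ≤ B := by
  rw [Subgroup.commutator_le]
  intro a ha y hy
  have hy' : y⁻¹ ∈ actTriv A B := (actTriv A B).inv_mem ((Subgroup.zpowers_le.mpr hx) hy)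
  have := hy'.2.2 a⁻¹ (A.inv_mem ha)
  rw [commutatorElement_def]
  simpa [mul_assoc] using this

/-- an element whose square acts trivially on an elementary abelian `2`-section acts quadratically -/
theorem quad_of_sq {U V : Subgroup G} [hU : U.Normal] [hV : V.Normal] {h : G}
    (hab : ∀ u ∈ U, ∀ u' ∈ U, ⁅u, u'⁆ ∈ V) (hsq : ∀ u ∈ U, u * u ∈ V) (hh : ∀ u ∈ U, ⁅h * h, u⁆ ∈ V) :
    ⁅⁅U, Subgroup.zpowers h⁆, Subgroup.zpowers h⁆ ≤ V := by
  set M := U ⊓ cenMod V h with hM
  have hnU : ∀ x : G, x ∈ Subgroup.normalizer (U : Set G) := fun x => by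
    rw [Subgroup.normalizer_eq_top_iff.mpr hU]; trivial
  have hnV : ∀ x : G, x ∈ Subgroup.normalizer (V : Set G) := fun x => by
    rw [Subgroup.normalizer_eq_top_iff.mpr hV]; trivial
  have hconj : ∀ x ∈ M, h * x * h⁻¹ ∈ M ∧ h⁻¹ * x * h ∈ M := by
    intro x hx
    refine ⟨⟨hU.conj_mem x hx.1 h, ?_⟩, ⟨by simpa using hU.conj_mem x hx.1 h⁻¹, ?_⟩⟩
    · change _ ∈ cenMod V h
      rw [mem_cenMod]
      have e : ⁅h, h * x * h⁻¹⁆ = h * ⁅h, x⁆ * h⁻¹ := by simp only [commutatorElement_def]; group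
      rw [e]
      exact hV.conj_mem _ (mem_cenMod.mp hx.2) h
    · change _ ∈ cenMod V h
      rw [mem_cenMod]
      have e : ⁅h, h⁻¹ * x * h⁆ = h⁻¹ * ⁅h, x⁆ * h⁻¹⁻¹ := by simp only [commutatorElement_def]; group
      rw [e]
      exact hV.conj_mem _ (mem_cenMod.mp hx.2) h⁻¹
  have hnM : h ∈ Subgroup.normalizer (M : Set G) := by
    rw [Subgroup.mem_normalizer_iff]
    intro x
    refine ⟨fun hx => (hconj x hx).1, fun hx => ?_⟩
    have := (hconj _ hx).2
    simpa [mul_assoc] using this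
  have h1 : h ∈ actTriv M V := by
    refine ⟨hnM, hnV h, fun a ha => ?_⟩
    have h2 : ⁅h, a⁆ ∈ V := mem_cenMod.mp ha.2
    have e : a⁻¹ * (h⁻¹ * a * h) = (h * a)⁻¹ * ⁅h, a⁆⁻¹ * (h * a)⁻¹⁻¹ := by
      simp only [commutatorElement_def]; group
    rw [e]
    exact hV.conj_mem _ (V.inv_mem h2) _
  have h2 : h ∈ actTriv U M := by
    refine ⟨hnU h, hnM, fun u hu => ?_⟩
    have hc : h⁻¹ * u * h ∈ U := by simpa using hU.conj_mem u hu h⁻¹
    refine ⟨U.mul_mem (U.inv_mem hu) hc, ?_⟩
    change _ ∈ cenMod V h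
    rw [mem_cenMod, ← QuotientGroup.eq_one_iff]
    change QuotientGroup.mk' V _ = 1
    set π := QuotientGroup.mk' V with hπ
    have k1 : ∀ x ∈ U, π x * π x = 1 := by
      intro x hx
      rw [← map_mul]
      exact (QuotientGroup.eq_one_iff _).mpr (hsq x hx)
    have k2 : ∀ x ∈ U, ∀ y ∈ U, π x * π y = π y * π x := by
      intro x hx y hy
      have := (QuotientGroup.eq_one_iff (N := V) _).mpr (hab x hx y hy)
      change π _ = 1 at this
      rw [commutatorElement_def, map_mul, map_mul, map_mul, map_inv, map_inv] at this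
      have h3 := mul_inv_eq_one.mp this
      exact mul_inv_eq_iff_eq_mul.mp h3
    have k3 : π (h * u * h⁻¹) = π (h⁻¹ * u * h) := by
      have := (QuotientGroup.eq_one_iff (N := V) _).mpr (hh u hu)
      change π _ = 1 at this
      rw [commutatorElement_def, map_mul, map_mul, map_mul, map_mul, map_inv, map_inv, map_mul] at this
      have h3 := mul_inv_eq_one.mp this
      rw [map_mul, map_mul, map_mul, map_mul, map_inv]
      calc π h * π u * (π h)⁻¹ = (π h)⁻¹ * (π h * π h * π u * (π h * π h)⁻¹) * π h := by group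
        _ = (π h)⁻¹ * π u * π h := by rw [h3]
    have hb : h * u * h⁻¹ ∈ U := hU.conj_mem u hu h
    have e : ⁅h, u⁻¹ * (h⁻¹ * u * h)⁆ = (h * u * h⁻¹)⁻¹ * u * ((h⁻¹ * u * h)⁻¹ * u) := by
      simp only [commutatorElement_def]; group
    rw [e, map_mul, map_mul, map_mul, map_inv, map_inv, ← k3]
    have k4 : π u * (π (h * u * h⁻¹))⁻¹ = (π (h * u * h⁻¹))⁻¹ * π u := by
      have := k2 u hu _ (U.inv_mem hb)
      rwa [map_inv] at this
    calc (π (h * u * h⁻¹))⁻¹ * π u * ((π (h * u * h⁻¹))⁻¹ * π u)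
        = (π (h * u * h⁻¹))⁻¹ * (π u * (π (h * u * h⁻¹))⁻¹) * π u := by group
      _ = (π (h * u * h⁻¹))⁻¹ * ((π (h * u * h⁻¹))⁻¹ * π u) * π u := by rw [k4]
      _ = (π (h * u * h⁻¹) * π (h * u * h⁻¹))⁻¹ * (π u * π u) := by group
      _ = 1 := by rw [k1 _ hb, k1 u hu]; simp
  exact (Subgroup.commutator_mono (comm_zpowers_le_of_actTriv h2) le_rfl).trans (comm_zpowers_le_of_actTriv h1)

end two

section witness

variable {G : Type u} [Group G] [Finite G] {p : ℕ} [Fact p.Prime]

/-- if a K-infinity subgroup of `S` is not normal, there is a cubic element outside `O_p(G)` which, when `G` is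
constrained, acts quadratically and nontrivially on a chief factor inside `A` -/
theorem exists_witness (S : Sylow p G) (A : Subgroup G) [hAn : A.Normal] (hAT' : A ≤ pCore p G)
    (hAT : ⁅A, pCore p G⁆ ≤ A ⊓ Subgroup.centralizer (A : Set G))
    (hC : pCore p G ⊓ Subgroup.centralizer (A : Set G) ≤ A ⊓ Subgroup.centralizer (A : Set G))
    (hK : ¬ (inducedFunctor kInfLower (S : Subgroup G)).Normal ∨ ¬ (inducedFunctor kInfUpper (S : Subgroup G)).Normal) :
    ∃ g ∈ (S : Subgroup G), g ∉ pCore p G ∧ iterCommutator A (Subgroup.zpowers g) 3 = ⊥ ∧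
      ⁅⁅A ⊓ Subgroup.centralizer (A : Set G), Subgroup.zpowers g⁆, Subgroup.zpowers g⁆ = ⊥ ∧
      (Subgroup.centralizer (pCore p G : Set G) ≤ pCore p G → ∃ U V : Subgroup G, IsChiefFactor U V ∧ U ≤ A ∧
        ⁅⁅U, Subgroup.zpowers g⁆, Subgroup.zpowers g⁆ ≤ V ∧ ¬ ⁅U, Subgroup.zpowers g⁆ ≤ V) := by
  have hA2 : ⁅A, A⁆ ≤ Subgroup.centralizer (A : Set G) :=
    ((Subgroup.commutator_mono le_rfl hAT').trans hAT).trans inf_le_right
  have hTp : IsPGroup p (pCore p G) := pCore_isPGroup p G
  by_cases hc : Subgroup.centralizer (pCore p G : Set G) ≤ pCore p G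
  swap
  · obtain ⟨g, h1, h2, h3, h4⟩ := exists_cubic_of_not_normal S A hAT' hA2 hAT hK
    exact ⟨g, h1, h2, h3, h4, fun h => absurd h hc⟩
  by_cases hp : p = 2
  · subst hp
    obtain ⟨g, h1, h2, h3, h4⟩ := exists_cubic_of_not_normal S A hAT' hA2 hAT hK
    have hex : ∃ m : ℕ, g ^ 2 ^ m ∈ pCore 2 G := by
      obtain ⟨k, hk⟩ := S.2 ⟨g, h1⟩
      have hk' : g ^ 2 ^ k = 1 := congrArg Subtype.val hk
      exact ⟨k, by rw [hk']; exact one_mem _⟩
    classical
    set m := Nat.find hex with hm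
    have hm1 : g ^ 2 ^ m ∈ pCore 2 G := Nat.find_spec hex
    have hm0 : m ≠ 0 := by
      intro h0
      rw [h0] at hm1
      simp at hm1
      exact h2 hm1
    obtain ⟨k, hk⟩ := Nat.exists_eq_succ_of_ne_zero hm0
    set h := g ^ 2 ^ k with hh
    have hhT : h ∉ pCore 2 G := Nat.find_min hex (by omega : k < Nat.find hex)
    have hh2 : h * h ∈ pCore 2 G := by
      have : h * h = g ^ 2 ^ m := by
        rw [hh, ← pow_add, hk, pow_succ]; congr 1; ring
      rw [this]; exact hm1
    have hz : Subgroup.zpowers h ≤ Subgroup.zpowers g :=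
      (Subgroup.zpowers_le).mpr (Subgroup.pow_mem _ (Subgroup.mem_zpowers g) _)
    refine ⟨h, Subgroup.pow_mem _ h1 _, hhT, ?_, ?_, fun _ => ?_⟩
    · rw [eq_bot_iff, ← h3]; exact iterCommutator_mono le_rfl hz 3
    · rw [eq_bot_iff, ← h4]; exact Subgroup.commutator_mono (Subgroup.commutator_mono le_rfl hz) hz
    · by_contra hcon
      push Not at hcon
      apply hhT
      have h5 : Subgroup.zpowers h ≤ pCore 2 G := by
        apply le_pCore_of_chief_trivial' A _ hAT' hc hAT hC
        intro U V hUV hU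
        apply hcon U V hUV hU
        have := hUV.2.1
        have := hUV.2.2.1
        have hUT : U ≤ pCore 2 G := hU.trans hAT'
        have h6 := pCore_centralizes_chief hUV hUT
        apply quad_of_sq
        · intro u hu u' hu'
          exact h6 (Subgroup.commutator_mem_commutator hu (hUT hu'))
        · intro u hu
          have := pow_mem_of_chief hUV (hTp.to_le hUT) u hu
          rwa [pow_two] at this
        · intro u hu
          rw [← commutatorElement_inv]
          exact V.inv_mem (h6 (Subgroup.commutator_mem_commutator hu hh2))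
      exact h5 (Subgroup.mem_zpowers h)
  · by_contra hcon
    push Not at hcon
    have ctx : KCtx p (S : Subgroup G) A := by
      refine ⟨hAn, hAT', hc, hAT, hC, ?_⟩
      intro b hb h3 h2 U V hUV hU hq
      by_cases hbT : b ∈ pCore p G
      · exact (Subgroup.commutator_mono le_rfl ((Subgroup.zpowers_le).mpr hbT)).trans
          (pCore_centralizes_chief hUV (hU.trans hAT'))
      · exact (hcon b hb hbT h3 h2).2 U V hUV hU hq
    have := ctx.normal hp
    rcases hK with hK | hK
    · exact hK this.1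
    · exact hK this.2

end witness

end Cfsg.Agent.H12
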