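import Mathlib
import Cfsg.Agent.H12.Sec6

set_option autoImplicit false

/-! Control of transfer in the constrained sections gives control of transfer. -/

namespace Cfsg.Agent.H12

open Cfsg
open scoped commutatorElement

universe u

variable {p : ℕ} [Fact p.Prime] {𝓦 : Set (∀ (Q : Type u) [Group Q], Subgroup Q)}

/-- hypothesis in terms of abstract sections -/
def LocCT (p : ℕ) (𝓦 : Set (∀ (Q : Type u) [Group Q], Subgroup Q)) (G : Type u) [Group G] : Prop :=
  ∀ (X : Type u) [Group X], IsSec G X →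
    Subgroup.centralizer ((pCore p X : Subgroup X) : Set X) ≤ pCore p X → FamilyControlsTransferIn p (indFam 𝓦 X) ⊤

lemma constrained_of_iso {X Y : Type u} [Group X] [Group Y] (e : X ≃* Y)
    (h : Subgroup.centralizer ((pCore p X : Subgroup X) : Set X) ≤ pCore p X) :
    Subgroup.centralizer ((pCore p Y : Subgroup Y) : Set Y) ≤ pCore p Y := by
  have hmap : ∀ {X Y : Type u} [Group X] [Group Y] (e : X ≃* Y), (pCore p X).map e.toMonoidHom ≤ pCore p Y := by
    intro X Y _ _ e
    unfold pCore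
    rw [sSup_eq_iSup, Subgroup.map_iSup]
    apply iSup_le
    intro N
    rw [Subgroup.map_iSup]
    apply iSup_le
    intro hN
    apply le_sSup
    refine ⟨?_, hN.2.map _⟩
    have := hN.1
    exact Subgroup.Normal.map this _ e.surjective
  intro y hy
  have h1 : e.symm y ∈ Subgroup.centralizer ((pCore p X : Subgroup X) : Set X) := by
    rw [Subgroup.mem_centralizer_iff]
    intro x hx
    have h2 := (Subgroup.mem_centralizer_iff.mp hy) (e x) (hmap e ⟨x, hx, rfl⟩)
    apply e.injective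
    rw [map_mul, map_mul, e.apply_symm_apply]
    exact h2
  have h3 := hmap e ⟨_, h h1, rfl⟩
  simpa using h3

lemma locCT_of_official {G : Type u} [Group G] [Finite G] (h𝓦 : ∀ W ∈ 𝓦, IsCharPFunctor.{u} p W)
    (hloc : ∀ (K R : Subgroup G) [hR : (R.subgroupOf K).Normal],
      Subgroup.centralizer ((pCore p (↥K ⧸ R.subgroupOf K) : Subgroup (↥K ⧸ R.subgroupOf K)) : Set (↥K ⧸ R.subgroupOf K))
        ≤ pCore p (↥K ⧸ R.subgroupOf K) →
      FamilyControlsTransferIn p ((fun W => inducedFunctor (G := (↥K ⧸ R.subgroupOf K)) W) '' 𝓦) ⊤) : LocCT p 𝓦 G := by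
  intro X _ hsec hc
  obtain ⟨K, R, hR, ⟨e⟩⟩ := hsec.exists_official
  exact controls_of_iso h𝓦 e (hloc K R (constrained_of_iso e.symm hc))

theorem controls_of_locCT_nonempty {G : Type u} [Group G] [Finite G] (h𝓦 : ∀ W ∈ 𝓦, IsCharPFunctor.{u} p W)
    (hne : 𝓦.Nonempty) (hloc : LocCT p 𝓦 G) (X : Type u) [Group X] (hX : IsSec G X) :
    FamilyControlsTransferIn p (indFam 𝓦 X) ⊤ := by
  obtain ⟨K, R, hR, ⟨e⟩⟩ := hX.exists_official
  refine controls_of_iso h𝓦 e ?_
  refine controls_all_sections h𝓦 ?_ K R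
  intro K R hR ih
  by_contra hcon
  obtain ⟨S⟩ : Nonempty (Sylow p (↥K ⧸ R.subgroupOf K)) := inferInstance
  have hnot : ¬ CT 𝓦 ⊤ (S : Subgroup (↥K ⧸ R.subgroupOf K)) := fun h =>
    hcon (controls_of_CT le_top S.2 (sylow_not_dvd_relIndex_top S) h)
  exact hcon (hloc _ (IsSec.official K R) (ih.structure h𝓦 hne S hnot rfl rfl).1)

/-- the identity functor -/
def idF : ∀ (Q : Type u) [Group Q], Subgroup Q := fun _ _ => ⊤

lemma isCharPFunctor_idF : IsCharPFunctor.{u} p idF := by
  constructor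
  · intro Q _ _ _ hnt
    exact (Subgroup.nontrivial_iff.mpr hnt |> fun h => (top_ne_bot))
  · intro Q R _ _ _ _ φ
    unfold idF
    rw [← MonoidHom.range_eq_map]
    exact MonoidHom.range_eq_top.mpr φ.surjective

lemma inducedFunctor_idF {H : Type u} [Group H] (S : Subgroup H) : inducedFunctor idF S = S := by
  unfold inducedFunctor idF
  rw [← MonoidHom.range_eq_map, Subgroup.range_subtype]

theorem controls_of_locCT_empty {G : Type u} [Group G] [Finite G]
    (hloc : LocCT p (∅ : Set (∀ (Q : Type u) [Group Q], Subgroup Q)) G) :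
    FamilyControlsTransferIn p (indFam (∅ : Set (∀ (Q : Type u) [Group Q], Subgroup Q)) G) ⊤ := by
  have he : ∀ W ∈ (∅ : Set (∀ (Q : Type u) [Group Q], Subgroup Q)), IsCharPFunctor.{u} p W := by
    intro W hW; exact absurd hW (Set.notMem_empty _)
  have h1 : ∀ W ∈ ({idF} : Set (∀ (Q : Type u) [Group Q], Subgroup Q)), IsCharPFunctor.{u} p W := by
    intro W hW
    rw [Set.mem_singleton_iff] at hW
    rw [hW]; exact isCharPFunctor_idF
  have hloc' : LocCT p ({idF} : Set (∀ (Q : Type u) [Group Q], Subgroup Q)) G := by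
    intro X _ hsec hc
    obtain ⟨T, hT1, hT2, hT3, hT4⟩ := hloc X hsec hc
    refine controls_of_CT hT1 hT2 hT3 ?_
    unfold CT
    rw [hT4]
    unfold indFam
    simp
  obtain ⟨S⟩ : Nonempty (Sylow p G) := inferInstance
  have h2 := CT_of_controls h1 (controls_of_locCT_nonempty h1 ⟨_, rfl⟩ hloc' G (IsSec.refl G)) le_top S.2
    (sylow_not_dvd_relIndex_top S)
  refine controls_of_CT le_top S.2 (sylow_not_dvd_relIndex_top S) ?_
  refine le_trans h2 ?_
  unfold focT
  rw [iSup_singleton, inducedFunctor_idF, top_inf_eq]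
  set N := Subgroup.normalizer ((S : Subgroup G) : Set G) with hN
  -- the quotient of `N` by its `p'`-core
  let π : N →* N ⧸ pPrimeCore p N := QuotientGroup.mk' _
  have hπ : Function.Surjective π := QuotientGroup.mk'_surjective _
  have hker : (Nat.card π.ker).Coprime p := by
    rw [QuotientGroup.ker_mk']; exact pPrimeCore_coprime p
  have hSN : (S : Subgroup G) ≤ N := Subgroup.le_normalizer
  set S₁ : Subgroup N := (S : Subgroup G).subgroupOf N with hS₁
  have hS₁p : IsPGroup p S₁ := S.2.comap_subtype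
  have hS₁n : S₁.Normal := Subgroup.normal_in_normalizer
  have hidx : ¬ p ∣ S₁.index := by
    intro h
    apply S.not_dvd_index
    have : S₁.index = (S : Subgroup G).relIndex N := rfl
    rw [this] at h
    exact h.trans (Subgroup.relIndex_dvd_index_of_le hSN)
  let S₂ : Sylow p (N ⧸ pPrimeCore p N) := (hS₁p.map π).toSylow (by
    intro h
    exact hidx (h.trans (Subgroup.index_map_dvd S₁ hπ)))
  have hS₂ : (S₂ : Subgroup (N ⧸ pPrimeCore p N)) = S₁.map π := rfl
  have hcon : Subgroup.centralizer ((pCore p (N ⧸ pPrimeCore p N) : Subgroup (N ⧸ pPrimeCore p N)) : Set _)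
      ≤ pCore p (N ⧸ pPrimeCore p N) := by
    apply centralizer_pCore_le_of S₂ (pPrimeCore_quotient_eq_bot p)
    refine inf_le_left.trans ?_
    rw [hS₂]
    exact le_sSup ⟨Subgroup.Normal.map hS₁n _ hπ, hS₁p.map π⟩
  have h3 := hloc _ (((IsSec.refl G).subgroup N).quotient _) hcon
  have h4 := CT_of_controls he h3 le_top S₂.2 (sylow_not_dvd_relIndex_top S₂)
  rw [hS₂] at h4
  have h5 := CT.of_quotient_coprime he π hπ hker hS₁p h4
  have h6 : focT (∅ : Set (∀ (Q : Type u) [Group Q], Subgroup Q)) ⊤ S₁ = ⊥ := by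
    unfold focT; simp
  unfold CT at h5
  rw [h6] at h5
  intro x hx
  have hxN : x ∈ N := hSN hx.1
  have h7 : (⟨x, hxN⟩ : N) ∈ S₁ ⊓ ⁅(⊤ : Subgroup N), ⊤⁆ := by
    refine ⟨hx.1, ?_⟩
    have h8 : (⁅(⊤ : Subgroup N), (⊤ : Subgroup N)⁆ : Subgroup N).map N.subtype = ⁅N, N⁆ := by
      rw [Subgroup.map_commutator, ← MonoidHom.range_eq_map, Subgroup.range_subtype]
    have h9 := hx.2
    rw [← h8] at h9
    obtain ⟨y, hy, hyx⟩ := h9
    have : y = ⟨x, hxN⟩ := Subtype.ext hyx
    rwa [← this]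
  have h10 := h5 h7
  rw [Subgroup.mem_bot] at h10
  have : x = 1 := congrArg Subtype.val h10
  rw [this]
  exact one_mem _

theorem controls_of_locCT {G : Type u} [Group G] [Finite G] (h𝓦 : ∀ W ∈ 𝓦, IsCharPFunctor.{u} p W)
    (hloc : LocCT p 𝓦 G) : FamilyControlsTransferIn p (indFam 𝓦 G) ⊤ := by
  rcases Set.eq_empty_or_nonempty 𝓦 with rfl | hne
  · exact controls_of_locCT_empty hloc
  · exact controls_of_locCT_nonempty h𝓦 hne hloc G (IsSec.refl G)

end Cfsg.Agent.H12
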