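import Mathlib
import Cfsg.Agent.H12.Zj3
import Cfsg.Agent.H20.CharSub

set_option autoImplicit false
set_option linter.unusedSimpArgs false
set_option linter.unusedSectionVars false
set_option linter.unnecessarySeqFocus false

/-! Normalizers of characteristic subgroups of the Sylow `p`-subgroup of `Qd(p)`. -/

namespace Cfsg.Agent.H12.Zj

open Subgroup Matrix Cfsg.Agent.H12.Dk Cfsg.Agent.Lib.Helper13
open scoped commutatorElement

universe u

variable {p : ℕ} [hpf : Fact p.Prime]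

namespace QdPar

variable {Y : Type u} [Group Y] (D : QdPar p Y)

lemma e10_of_normalizer_Z0 {m : SpecialLinearGroup (Fin 2) (ZMod p)} {v : ZMod p × ZMod p}
    (h : D.A m v ∈ normalizer (D.Z0 : Set Y)) : e10 m = 0 := by
  have h1 : D.A m v * D.A 1 (1, 0) * (D.A m v)⁻¹ ∈ D.Z0 :=
    (mem_normalizer_iff.mp h _).mp ⟨1, by unfold hh; rw [xx_zero]⟩
  rw [D.conj] at h1
  obtain ⟨s, hs⟩ := h1
  unfold hh at hs
  have h2 := (D.inj _ _ _ _ hs).2
  unfold act at h2
  rw [Prod.mk.injEq] at h2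
  simpa using h2.2

lemma mem_normalizer_T0 {m : SpecialLinearGroup (Fin 2) (ZMod p)} (v : ZMod p × ZMod p)
    (h : e10 m = 0) : D.A m v ∈ normalizer (D.T0 : Set Y) := by
  have key : ∀ (m : SpecialLinearGroup (Fin 2) (ZMod p)) (v : ZMod p × ZMod p), e10 m = 0 →
      ∀ y ∈ D.T0, D.A m v * y * (D.A m v)⁻¹ ∈ D.T0 := by
    rintro m v h _ ⟨t, w, rfl⟩
    rw [D.inv, D.mul, D.mul]
    refine ⟨e00 m ^ 2 * t, v + act m w + act (m * xx t) (-act m⁻¹ v), ?_⟩
    congr 1
    have hdet := sl_det m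
    rw [h, mul_zero, sub_zero] at hdet
    apply sl_ext <;>
      simp only [e00_mul, e01_mul, e10_mul, e11_mul, e00_inv, e01_inv, e10_inv, e11_inv, e00_xx, e01_xx, e10_xx,
        e11_xx, h]
    · linear_combination hdet
    · ring
    · ring
    · linear_combination hdet
  rw [mem_normalizer_iff]
  intro y
  refine ⟨key m v h y, fun hy => ?_⟩
  have h2 := key m⁻¹ (-(act m⁻¹ v)) (by rw [e10_inv, h, neg_zero]) _ hy
  rw [← D.inv] at h2
  simpa [mul_assoc] using h2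

lemma normalizer_Z0_le : normalizer (D.Z0 : Set Y) ≤ normalizer (D.T0 : Set Y) := by
  intro y hy
  obtain ⟨m, v, rfl⟩ := D.surj y
  exact D.mem_normalizer_T0 v (D.e10_of_normalizer_Z0 hy)

lemma normalizer_T0_ne_top : normalizer (D.T0 : Set Y) ≠ ⊤ := by
  intro htop
  obtain ⟨w, hw⟩ : ∃ m : SpecialLinearGroup (Fin 2) (ZMod p), (m : Matrix (Fin 2) (Fin 2) (ZMod p)) = !![0, -1; 1, 0] :=
    ⟨⟨_, by simp [det_fin_two]⟩, rfl⟩
  have h1 : D.A w 0 ∈ normalizer (D.T0 : Set Y) := by rw [htop]; trivial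
  have h2 : D.A w 0 * D.A (xx 1) 0 * (D.A w 0)⁻¹ ∈ D.T0 := (mem_normalizer_iff.mp h1 _).mp ⟨1, 0, rfl⟩
  rw [D.inv, D.mul, D.mul] at h2
  obtain ⟨t, v, ht⟩ := h2
  have h3 := congrArg e10 (D.inj _ _ _ _ ht).1
  simp only [e00_mul, e01_mul, e10_mul, e11_mul, e00_inv, e01_inv, e10_inv, e11_inv, e00_xx, e01_xx, e10_xx,
        e11_xx] at h3
  have a00 : e00 w = 0 := by unfold e00; rw [hw]; rfl
  have a10 : e10 w = 1 := by unfold e10; rw [hw]; rfl
  have a11 : e11 w = 0 := by unfold e11; rw [hw]; rfl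
  rw [a10, a11] at h3
  simp at h3

/-- a nontrivial normal subgroup of `T0` contains the centre -/
lemma Z0_le_of_normal {T : Subgroup Y} (hT : T ≤ D.T0) (hne : T ≠ ⊥)
    (hn : ∀ x ∈ T, ∀ g ∈ D.T0, ⁅x, g⁆ ∈ T) : D.Z0 ≤ T := by
  have step : ∃ s : ZMod p, s ≠ 0 ∧ D.hh 0 s 0 ∈ T := by
    obtain ⟨y, hy, hy1⟩ := (Subgroup.ne_bot_iff_exists_ne_one.mp hne |> fun ⟨a, ha⟩ =>
      (⟨a.1, a.2, fun h => ha (Subtype.ext h)⟩ : ∃ z, z ∈ T ∧ z ≠ 1))
    obtain ⟨t, a, b, rfl⟩ := D.mem_T0 (hT hy)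
    by_cases ht : t = 0
    · by_cases hb : b = 0
      · subst ht hb
        refine ⟨a, ?_, hy⟩
        rintro rfl
        exact hy1 D.hh_zero
      · have := hn _ hy (D.hh 1 0 0) (D.hh_mem _ _ _)
        rw [D.hh_comm] at this
        refine ⟨_, ?_, this⟩
        simpa using hb
    · have := hn _ hy (D.hh 0 0 1) (D.hh_mem _ _ _)
      rw [D.hh_comm] at this
      refine ⟨_, ?_, this⟩
      simpa using ht
  obtain ⟨s, hs, hsT⟩ := step
  rintro _ ⟨s', rfl⟩
  have h1 := T.pow_mem hsT (s' * s⁻¹).val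
  rw [D.hh_pow] at h1
  have e : D.hh 0 s' 0 = D.hh (((s' * s⁻¹).val : ℕ) * 0) (((s' * s⁻¹).val : ℕ) * s + (((s' * s⁻¹).val.choose 2 : ℕ) : ZMod p) * (0 * 0))
      (((s' * s⁻¹).val : ℕ) * 0) := by
    congr 1
    · ring
    · rw [ZMod.natCast_zmod_val]
      field_simp
      ring
    · ring
  rw [e]
  exact h1

theorem normalizer_char [Finite Y] (D : QdPar p Y) (T : Subgroup D.T0) (hT : T ≠ ⊥) (hTc : T.Characteristic) :
    normalizer ((T.map D.T0.subtype : Subgroup Y) : Set Y) = normalizer (D.T0 : Set Y) := by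
  apply le_antisymm _ (Cfsg.Agent.H20.char_le_normalizer D.T0 T)
  set T' := T.map D.T0.subtype with hT'
  have hle : T' ≤ D.T0 := map_subtype_le T
  have hne : T' ≠ ⊥ := by
    intro h
    exact hT ((map_eq_bot_iff_of_injective _ (subtype_injective _)).mp h)
  have hTn : T.Normal := inferInstance
  have hZ : D.Z0 ≤ T' := by
    refine D.Z0_le_of_normal hle hne ?_
    rintro _ ⟨x, hx, rfl⟩ g hg
    refine ⟨⁅x, ⟨g, hg⟩⁆, ?_, rfl⟩
    rw [commutatorElement_def]
    exact T.mul_mem hx (hTn.conj_mem _ (T.inv_mem hx) _) |> fun h => by simpa [mul_assoc] using h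
  have hdvd : Nat.card T' ∣ p ^ 3 := by
    rw [← D.card_T0]
    exact card_dvd_of_le hle
  obtain ⟨k, hk, hk'⟩ := (Nat.dvd_prime_pow hpf.out).mp hdvd
  have hp1 : 1 < p := hpf.out.one_lt
  have hk0 : k ≠ 0 := by
    rintro rfl
    rw [pow_zero] at hk'
    exact hne ((Subgroup.card_eq_one).mp hk')
  have hcases : k = 1 ∨ k = 2 ∨ k = 3 := by omega
  rcases hcases with rfl | rfl | rfl
  · have : D.Z0 = T' := Subgroup.eq_of_le_of_card_ge hZ (by rw [hk', D.card_Z0, pow_one])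
    rw [← this]
    exact D.normalizer_Z0_le
  · -- order `p²`
    have hneW : T' ≠ D.W0 := by
      intro h
      have h1 : (⟨D.hh 0 0 1, D.hh_mem _ _ _⟩ : D.T0) ∈ T := by
        have : D.hh 0 0 1 ∈ T' := by rw [h]; exact (D.mem_W0_iff _ _ _).mpr rfl
        obtain ⟨y, hy, hy'⟩ := this
        have : y = ⟨D.hh 0 0 1, D.hh_mem _ _ _⟩ := Subtype.ext hy'
        rwa [← this]
      have h2 : D.swapAut ⟨D.hh 0 0 1, D.hh_mem _ _ _⟩ ∈ T := by
        have := (characteristic_iff_map_eq.mp hTc) D.swapAut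
        rw [← this]
        exact ⟨_, h1, rfl⟩
      rw [D.swapAut_apply] at h2
      have h3 : D.hh 1 (0 * 1 - 0) 0 ∈ T' := ⟨_, h2, rfl⟩
      rw [h, D.mem_W0_iff] at h3
      exact one_ne_zero h3
    have hinf : T' ⊓ D.W0 = D.Z0 := by
      symm
      apply Subgroup.eq_of_le_of_card_ge (le_inf hZ D.Z0_le_W0)
      rw [D.card_Z0]
      have hd : Nat.card (T' ⊓ D.W0 : Subgroup Y) ∣ p ^ 2 := by
        rw [← hk']
        exact card_dvd_of_le inf_le_left
      obtain ⟨j, hj, hj'⟩ := (Nat.dvd_prime_pow hpf.out).mp hd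
      have hj2 : j ≠ 2 := by
        rintro rfl
        apply hneW
        have e1 : T' ⊓ D.W0 = T' := Subgroup.eq_of_le_of_card_ge inf_le_left (by rw [hj', hk'])
        have e2 : T' ⊓ D.W0 = D.W0 := Subgroup.eq_of_le_of_card_ge inf_le_right (by rw [hj', D.card_W0])
        rw [← e1, e2]
      rw [hj']
      calc p ^ j ≤ p ^ 1 := Nat.pow_le_pow_right hpf.out.pos (by omega)
        _ = p := pow_one p
    refine le_trans ?_ D.normalizer_Z0_le
    intro g hg
    rw [← hinf]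
    have hWn := D.W0_normal
    rw [mem_normalizer_iff] at hg ⊢
    intro y
    rw [mem_inf, mem_inf, ← hg y]
    have : y ∈ D.W0 ↔ g * y * g⁻¹ ∈ D.W0 := by
      constructor
      · intro h; exact hWn.conj_mem _ h _
      · intro h
        have := hWn.conj_mem _ h g⁻¹
        simpa [mul_assoc] using this
    rw [this]
  · have : T' = D.T0 := Subgroup.eq_of_le_of_card_ge hle (by rw [hk', D.card_T0])
    rw [this]

end QdPar

end Cfsg.Agent.H12.Zj
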